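import Mathlib
import Cfsg.Agent.Lib.Helper5.Zass

/-!
# Permutation groups of degree `p + 1` containing the translation `x ↦ x + 1`

A generalisation of `Cfsg.Agent.Lib.Helper5.Zass.Good` to arbitrary order `(p + 1) p d`.
-/

set_option autoImplicit false

namespace Cfsg.Agent.Lib.Helper90.ZG

open Equiv Cfsg.Agent.Lib.Helper5.Zass

/-- The hypotheses on the permutation group: order `(p+1) p d`, contains the translation,
the stabiliser of `∞` normalises the translations, and `∞` is moved. -/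
structure ZGood (p d : ℕ) (H : Subgroup (Perm (Option (ZMod p)))) : Prop where
  card : Nat.card H = (p + 1) * p * d
  tr_mem : Tr (1 : ZMod p) ∈ H
  norm : ∀ h ∈ H, h none = none → h * Tr 1 * h⁻¹ ∈ Subgroup.zpowers (Tr (1 : ZMod p))
  moves : ∃ t ∈ H, t none ≠ none

theorem pinv_apply {α : Type*} (g : Perm α) (x : α) : g⁻¹ (g x) = x := by simp

theorem papply_inv {α : Type*} (g : Perm α) (x : α) : g (g⁻¹ x) = x := by simp

variable {p d : ℕ} [Fact p.Prime] {H : Subgroup (Perm (Option (ZMod p)))}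

theorem ZGood.Tr_mem (hH : ZGood p d H) (u : ZMod p) : Tr u ∈ H := by
  have : Tr u = Tr 1 ^ u.val := by rw [Tr_pow, ZMod.natCast_zmod_val]
  rw [this]; exact pow_mem hH.tr_mem _

theorem ZGood.mem_K_of_Aff_mem (hH : ZGood p d H) {k : (ZMod p)ˣ} {b : ZMod p}
    (h : Aff k b ∈ H) : k ∈ K H := by
  have h1 := H.mul_mem (hH.Tr_mem (-b)) h
  rwa [Tr_mul_Aff, add_neg_cancel] at h1

theorem ZGood.Aff_mem (hH : ZGood p d H) {k : (ZMod p)ˣ} (hk : k ∈ K H) (b : ZMod p) :
    Aff k b ∈ H := by
  have h1 := H.mul_mem (hH.Tr_mem b) hk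
  rwa [Tr_mul_Aff, zero_add] at h1

theorem ZGood.affine (hH : ZGood p d H) {h : Perm (Option (ZMod p))} (hh : h ∈ H)
    (hfix : h none = none) : ∃ (k : (ZMod p)ˣ) (b : ZMod p), h = Aff k b := by
  obtain ⟨n, hn⟩ := Subgroup.mem_zpowers_iff.1 (hH.norm h hh hfix)
  rw [Tr_zpow] at hn
  have hcomm : h * Tr 1 = Tr (n : ZMod p) * h := by
    rw [hn]; group
  have h0 : h (some 0) ≠ none := fun h0 => by
    have := h.injective (h0.trans hfix.symm)
    simp at this
  obtain ⟨b, hb⟩ := Option.ne_none_iff_exists'.1 h0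
  have key : ∀ j : ℕ, h (some (j : ZMod p)) = some ((n : ZMod p) * j + b) := by
    intro j
    induction j with
    | zero => simp [hb]
    | succ j ih =>
      have h1 : h (some (((j + 1 : ℕ) : ZMod p))) =
          (h * Tr 1 : Perm (Option (ZMod p))) (some (j : ZMod p)) := by
        rw [Perm.mul_apply, Tr_some]; push_cast; rfl
      rw [h1, hcomm, Perm.mul_apply, ih, Tr_some]
      congr 1; push_cast; ring
  have key' : ∀ x : ZMod p, h (some x) = some ((n : ZMod p) * x + b) := by
    intro x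
    have := key x.val
    rwa [ZMod.natCast_zmod_val] at this
  have hn0 : (n : ZMod p) ≠ 0 := by
    intro hz
    have h1 := key' 1
    rw [hz, zero_mul, zero_add, ← hb] at h1
    have := h.injective h1
    simp at this
  refine ⟨Units.mk0 _ hn0, b, Equiv.ext fun z => ?_⟩
  cases z with
  | none => simpa using hfix
  | some x => simp [key']

/-- Elements of `H` fixing `∞` are affine with multiplier in `K H`. -/
theorem ZGood.affine' (hH : ZGood p d H) {h : Perm (Option (ZMod p))} (hh : h ∈ H)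
    (hfix : h none = none) : ∃ (k : (ZMod p)ˣ) (b : ZMod p), k ∈ K H ∧ h = Aff k b := by
  obtain ⟨k, b, rfl⟩ := hH.affine hh hfix
  exact ⟨k, b, hH.mem_K_of_Aff_mem hh, rfl⟩

theorem ZGood.orbit_eq (hH : ZGood p d H) (z : Option (ZMod p)) : ∃ h ∈ H, h none = z := by
  obtain ⟨t, ht, htn⟩ := hH.moves
  cases z with
  | none => exact ⟨1, H.one_mem, rfl⟩
  | some x =>
    obtain ⟨x₀, hx₀⟩ := Option.ne_none_iff_exists'.1 htn
    refine ⟨Tr (x - x₀) * t, H.mul_mem (hH.Tr_mem _) ht, ?_⟩
    rw [Perm.mul_apply, hx₀, Tr_some]; congr 1; ring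

theorem ZGood.card_eq (hH : ZGood p d H) : Nat.card H = (p + 1) * (Nat.card (K H) * p) := by
  classical
  let S := MulAction.stabilizer H (none : Option (ZMod p))
  have h1 : S.index = p + 1 := by
    rw [MulAction.index_stabilizer]
    have : MulAction.orbit H (none : Option (ZMod p)) = Set.univ := by
      ext z; simp only [Set.mem_univ, iff_true]
      obtain ⟨h, hh, hz⟩ := hH.orbit_eq z
      exact ⟨⟨h, hh⟩, hz⟩
    rw [this, Set.ncard_univ, Nat.card_eq_fintype_card, Fintype.card_option, ZMod.card]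
  have h2 : Nat.card S = Nat.card (K H) * p := by
    let F : K H × ZMod p → S := fun kb => ⟨⟨Aff kb.1 kb.2, hH.Aff_mem kb.1.2 kb.2⟩, by
      rw [MulAction.mem_stabilizer_iff]; rfl⟩
    have hF : Function.Bijective F := by
      constructor
      · rintro ⟨k, b⟩ ⟨k', b'⟩ hkb
        have h3 : Aff (k : (ZMod p)ˣ) b = Aff (k' : (ZMod p)ˣ) b' :=
          congrArg (fun s : S => ((s : H) : Perm (Option (ZMod p)))) hkb
        have hb : b = b' := by
          have := congrArg (fun π : Perm (Option (ZMod p)) => π (some 0)) h3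
          simpa using this
        have hk : (k : (ZMod p)ˣ) = k' := by
          have := congrArg (fun π : Perm (Option (ZMod p)) => π (some 1)) h3
          simp [hb] at this
          exact Units.ext this
        exact Prod.ext (Subtype.ext hk) hb
      · rintro ⟨⟨h, hh⟩, hs⟩
        have hfix : h none = none := hs
        obtain ⟨k, b, rfl⟩ := hH.affine hh hfix
        exact ⟨(⟨k, hH.mem_K_of_Aff_mem hh⟩, b), rfl⟩
    rw [← Nat.card_congr (Equiv.ofBijective F hF), Nat.card_prod, Nat.card_zmod]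
  rw [← S.card_mul_index, h1, h2]; ring

theorem ZGood.card_K (hH : ZGood p d H) : Nat.card (K H) = d := by
  have hp : p.Prime := Fact.out
  have h1 := hH.card
  rw [hH.card_eq] at h1
  have h2 : (p + 1) * p * Nat.card (K H) = (p + 1) * p * d := by rw [← h1]; ring
  exact Nat.eq_of_mul_eq_mul_left (Nat.mul_pos (Nat.succ_pos p) hp.pos) h2

theorem ZGood.d_dvd (hH : ZGood p d H) : d ∣ p - 1 := by
  have hp : p.Prime := Fact.out
  have h2 : Nat.card (ZMod p)ˣ = p - 1 := by
    rw [Nat.card_eq_fintype_card, ZMod.card_units_eq_totient, Nat.totient_prime hp]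
  rw [← hH.card_K, ← h2]
  exact Subgroup.card_subgroup_dvd_card (K H)

theorem ZGood.d_pos (hH : ZGood p d H) : 0 < d := by
  rw [← hH.card_K]; exact Nat.card_pos

theorem ZGood.exists_swap (hH : ZGood p d H) :
    ∃ s ∈ H, s none = some 0 ∧ s (some 0) = none := by
  obtain ⟨t, ht, ht0⟩ := hH.orbit_eq (some 0)
  have h1 : t.symm none ≠ none := fun h => by
    have h2 : t none = none := by
      conv_lhs => rw [← h]
      exact t.apply_symm_apply none
    rw [ht0] at h2
    simp at h2
  obtain ⟨x₁, hx₁⟩ := Option.ne_none_iff_exists'.1 h1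
  refine ⟨t * Tr x₁, H.mul_mem ht (hH.Tr_mem _), ?_, ?_⟩
  · simp [Perm.mul_apply, ht0]
  · rw [Perm.mul_apply, Tr_some, zero_add, ← hx₁, Equiv.apply_symm_apply]

theorem ZGood.conj_swap (hH : ZGood p d H) {s : Perm (Option (ZMod p))} (hs : s ∈ H)
    (hs0 : s none = some 0) (hs1 : s (some 0) = none) {k : (ZMod p)ˣ} (hk : k ∈ K H) :
    ∃ k' ∈ K H, s * Aff k 0 = Aff k' 0 * s := by
  have hmem : s * Aff k 0 * s⁻¹ ∈ H := H.mul_mem (H.mul_mem hs hk) (H.inv_mem hs)
  have hsinv0 : s⁻¹ none = some 0 := by rw [Perm.inv_eq_iff_eq]; exact hs1.symm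
  have hsinv1 : s⁻¹ (some 0) = none := by rw [Perm.inv_eq_iff_eq]; exact hs0.symm
  have hfix : (s * Aff k 0 * s⁻¹) none = none := by
    simp [Perm.mul_apply, hsinv0, hs1]
  obtain ⟨k', b', hk'⟩ := hH.affine hmem hfix
  have hb' : b' = 0 := by
    have := congrArg (fun π : Perm (Option (ZMod p)) => π (some 0)) hk'
    simp [Perm.mul_apply, hsinv1, hs0] at this
    exact this.symm
  subst hb'
  refine ⟨k', hH.mem_K_of_Aff_mem (hk' ▸ hmem), ?_⟩
  rw [← hk']; group

/-- A swap sends nonzero points to nonzero points. -/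
theorem swap_some {s : Perm (Option (ZMod p))} (h0 : s none = some 0) (h1 : s (some 0) = none)
    (x : ZMod p) (hx : x ≠ 0) : ∃ v : ZMod p, v ≠ 0 ∧ s (some x) = some v := by
  have hne : s (some x) ≠ none := fun h => by
    have := s.injective (h.trans h1.symm)
    simp at this
    exact hx this
  obtain ⟨v, hv⟩ := Option.ne_none_iff_exists'.1 hne
  refine ⟨v, ?_, hv⟩
  rintro rfl
  have := s.injective (hv.trans h0.symm)
  simp at this

/-- An element of `H` fixing `∞` and two distinct finite points is the identity. -/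
theorem ZGood.eq_one_of_fix (hH : ZGood p d H) {h : Perm (Option (ZMod p))} (hh : h ∈ H)
    (hfix : h none = none) {a b : ZMod p} (hab : a ≠ b) (ha : h (some a) = some a)
    (hb : h (some b) = some b) : h = 1 := by
  obtain ⟨k, c, rfl⟩ := hH.affine hh hfix
  rw [Aff_some] at ha hb
  have ha' : (k : ZMod p) * a + c = a := Option.some.inj ha
  have hb' : (k : ZMod p) * b + c = b := Option.some.inj hb
  have h1 : ((k : ZMod p) - 1) * (a - b) = 0 := by linear_combination ha' - hb'
  have h2 : (k : ZMod p) = 1 := by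
    rcases mul_eq_zero.1 h1 with h | h
    · exact sub_eq_zero.1 h
    · exact absurd (sub_eq_zero.1 h) hab
  have h3 : c = 0 := by rw [h2, one_mul] at ha'; simpa using ha'
  have hk1 : k = 1 := Units.ext h2
  rw [hk1, h3, Aff_one]

/-- An element of `H` fixing three distinct points is the identity. -/
theorem ZGood.eq_one_of_fix3 (hH : ZGood p d H) {h : Perm (Option (ZMod p))} (hh : h ∈ H)
    {x y z : Option (ZMod p)} (hxy : x ≠ y) (hxz : x ≠ z) (hyz : y ≠ z)
    (hx : h x = x) (hy : h y = y) (hz : h z = z) : h = 1 := by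
  obtain ⟨g, hg, hgx⟩ := hH.orbit_eq x
  have hmem : g⁻¹ * h * g ∈ H := H.mul_mem (H.mul_mem (H.inv_mem hg) hh) hg
  have hfix : (g⁻¹ * h * g) none = none := by
    rw [Perm.mul_apply, Perm.mul_apply, hgx, hx, ← hgx, pinv_apply]
  have hy' : g⁻¹ y ≠ none := fun h0 => hxy (by rw [← hgx, ← h0, papply_inv])
  have hz' : g⁻¹ z ≠ none := fun h0 => hxz (by rw [← hgx, ← h0, papply_inv])
  obtain ⟨a, ha⟩ := Option.ne_none_iff_exists'.1 hy'
  obtain ⟨b, hb⟩ := Option.ne_none_iff_exists'.1 hz'
  have hab : a ≠ b := fun e => hyz (by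
    have : g⁻¹ y = g⁻¹ z := by rw [ha, hb, e]
    exact g⁻¹.injective this)
  have h1 : (g⁻¹ * h * g) (some a) = some a := by
    rw [Perm.mul_apply, Perm.mul_apply, ← ha, papply_inv, hy]
  have h2 : (g⁻¹ * h * g) (some b) = some b := by
    rw [Perm.mul_apply, Perm.mul_apply, ← hb, papply_inv, hz]
  have h3 := hH.eq_one_of_fix hmem hfix hab h1 h2
  have : h = g * (g⁻¹ * h * g) * g⁻¹ := by group
  rw [this, h3]; group

/-- Two-transitivity. -/
theorem ZGood.two_trans (hH : ZGood p d H) {x y : Option (ZMod p)} (hxy : x ≠ y) :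
    ∃ g ∈ H, g none = x ∧ g (some 0) = y := by
  obtain ⟨g, hg, hgx⟩ := hH.orbit_eq x
  have hy' : g⁻¹ y ≠ none := fun h0 => hxy (by rw [← hgx, ← h0, papply_inv])
  obtain ⟨a, ha⟩ := Option.ne_none_iff_exists'.1 hy'
  refine ⟨g * Tr a, H.mul_mem hg (hH.Tr_mem a), ?_, ?_⟩
  · rw [Perm.mul_apply, Tr_none, hgx]
  · rw [Perm.mul_apply, Tr_some, zero_add, ← ha, papply_inv]

/-- Conversion to the index-two structure of `Helper5`. -/
theorem ZGood.toGood (hH : ZGood p d H) (hd : 2 * d = p - 1) : Good p H := by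
  have hp : p.Prime := Fact.out
  refine ⟨?_, hH.tr_mem, hH.norm, hH.moves⟩
  rw [hH.card]
  have h1 : p ^ 2 - 1 = (p + 1) * (p - 1) := by
    have := hp.one_lt
    obtain ⟨k, rfl⟩ : ∃ k, p = k + 1 := ⟨p - 1, by omega⟩
    simp only [Nat.add_sub_cancel]
    apply Nat.sub_eq_of_eq_add; ring
  rw [h1, ← hd]; ring

end Cfsg.Agent.Lib.Helper90.ZG
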