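import Mathlib
import Cfsg.Prelude.Def_MonsterType

set_option autoImplicit false

namespace Cfsg.Agent.Lib.Helper90

/-- A fixed-point-free involution normalising a finite subgroup inverts it. -/
theorem inverts_of_fixed_point_free {G : Type*} [Group G] (K : Subgroup G) [Finite K] (t : G)
    (ht : t * t = 1) (htK : ∀ k ∈ K, t * k * t⁻¹ ∈ K)
    (hfix : ∀ k ∈ K, t * k = k * t → k = 1) : ∀ k ∈ K, t * k * t⁻¹ = k⁻¹ := by
  have htinv : t⁻¹ = t := inv_eq_of_mul_eq_one_left ht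
  let φ : K → K := fun k => ⟨(k : G)⁻¹ * (t * k * t⁻¹), K.mul_mem (K.inv_mem k.2) (htK k k.2)⟩
  have hinj : Function.Injective φ := by
    intro k m hkm
    have h1 : (k : G)⁻¹ * (t * k * t⁻¹) = (m : G)⁻¹ * (t * m * t⁻¹) := congrArg Subtype.val hkm
    have h2 : t * ((m : G) * (k : G)⁻¹) = ((m : G) * (k : G)⁻¹) * t := by
      have : (m : G) * (k : G)⁻¹ = t * m * t⁻¹ * (t * k * t⁻¹)⁻¹ := by
        have h3 : (m : G) * ((k : G)⁻¹ * (t * k * t⁻¹)) = t * m * t⁻¹ := by
          rw [h1]; group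
        rw [← h3]; group
      have h4 : t * m * t⁻¹ * (t * k * t⁻¹)⁻¹ = t * ((m : G) * (k : G)⁻¹) * t⁻¹ := by group
      rw [h4] at this
      have h5 : ((m : G) * (k : G)⁻¹) * t = t * ((m : G) * (k : G)⁻¹) * t⁻¹ * t := by rw [← this]
      rw [h5]; group
    have h6 := hfix _ (K.mul_mem m.2 (K.inv_mem k.2)) h2
    have h7 : (m : G) = k := by
      have := mul_inv_eq_one.mp h6
      exact this
    exact Subtype.ext h7.symm
  have hsurj : Function.Surjective φ := Finite.surjective_of_injective hinj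
  intro x hx
  obtain ⟨k, hk⟩ := hsurj ⟨x, hx⟩
  have hk' : (k : G)⁻¹ * (t * k * t⁻¹) = x := congrArg Subtype.val hk
  rw [← hk']
  have e1 : ((k : G)⁻¹ * (t * k * t⁻¹))⁻¹ = t * (k : G)⁻¹ * t⁻¹ * k := by group
  have e2 : t * ((k : G)⁻¹ * (t * k * t⁻¹)) * t⁻¹ = t * (k : G)⁻¹ * t * k * (t⁻¹ * t⁻¹) := by group
  rw [e1, e2, htinv, ht, mul_one]

/-- The centre of an extraspecial `2`-subgroup `Q` is `{1, z}` for an involution `z`. -/
theorem exists_center_gen {G : Type*} [Group G] (Q : Subgroup G)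
    (hQ : Cfsg.IsExtraspecial 2 ↥Q) :
    ∃ z : G, z ∈ Q ∧ z ≠ 1 ∧ z * z = 1 ∧
      (∀ x, x ∈ (Subgroup.center ↥Q).map Q.subtype ↔ x = 1 ∨ x = z) ∧
      (∀ q ∈ Q, q * z = z * q) := by
  obtain ⟨c, hc1, hc2⟩ := (Nat.card_eq_two_iff' (1 : Subgroup.center ↥Q)).mp hQ.2
  have hc1' : ((c : Q) : G) ≠ 1 := by
    intro h
    apply hc1
    ext
    simpa using h
  have hcc : c * c = 1 := by
    by_contra h
    have := hc2 (c * c) h
    have h2 : c = 1 := by
      have h3 : c * c = c * 1 := by rw [mul_one]; exact this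
      exact mul_left_cancel h3
    exact hc1 h2
  refine ⟨((c : Q) : G), (c : Q).2, hc1', ?_, ?_, ?_⟩
  · have := congrArg (fun x : Subgroup.center ↥Q => ((x : Q) : G)) hcc
    simpa using this
  · intro x
    constructor
    · rintro ⟨y, hy, rfl⟩
      by_cases h : (⟨y, hy⟩ : Subgroup.center ↥Q) = 1
      · left
        have := congrArg (fun x : Subgroup.center ↥Q => ((x : Q) : G)) h
        simpa using this
      · right
        have := hc2 ⟨y, hy⟩ h
        have := congrArg (fun x : Subgroup.center ↥Q => ((x : Q) : G)) this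
        simpa using this
    · rintro (rfl | rfl)
      · exact Subgroup.one_mem _
      · exact ⟨(c : Q), c.2, rfl⟩
  · intro q hq
    have h := Subgroup.mem_center_iff.mp c.2 ⟨q, hq⟩
    have := congrArg (fun x : Q => (x : G)) h
    simpa using this

/-- In an extraspecial `2`-subgroup `Q` with central involution `z`, a non-central element `b`
is conjugate in `Q` to `z * b`. -/
theorem exists_conj_mul_center {G : Type*} [Group G] (Q : Subgroup G)
    (hQ : Cfsg.IsExtraspecial 2 ↥Q) (z : G)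
    (hz : ∀ x, x ∈ (Subgroup.center ↥Q).map Q.subtype ↔ x = 1 ∨ x = z)
    (b : G) (hbQ : b ∈ Q) (hbZ : b ∉ (Subgroup.center ↥Q).map Q.subtype) :
    ∃ q ∈ Q, q * b * q⁻¹ = z * b := by
  have hb' : (⟨b, hbQ⟩ : Q) ∉ Subgroup.center ↥Q := by
    intro h
    exact hbZ ⟨⟨b, hbQ⟩, h, rfl⟩
  rw [Subgroup.mem_center_iff] at hb'
  push Not at hb'
  obtain ⟨q, hq⟩ := hb'
  have hcomm : q * (⟨b, hbQ⟩ : Q) * q⁻¹ * (⟨b, hbQ⟩ : Q)⁻¹ ∈ Subgroup.center ↥Q := by
    rw [← hQ.1.2.2]
    exact Subgroup.commutator_mem_commutator (Subgroup.mem_top q) (Subgroup.mem_top _)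
  have hmem : (q : G) * b * (q : G)⁻¹ * b⁻¹ ∈ (Subgroup.center ↥Q).map Q.subtype :=
    ⟨_, hcomm, rfl⟩
  refine ⟨q, q.2, ?_⟩
  rcases (hz _).mp hmem with h | h
  · exfalso
    apply hq
    have h1 : (q : G) * b = b * q := by
      have : (q : G) * b * (q : G)⁻¹ * b⁻¹ * (b * q) = b * q := by rw [h, one_mul]
      rw [← this]; group
    ext
    simpa using h1
  · have : (q : G) * b * (q : G)⁻¹ * b⁻¹ * b = z * b := by rw [h]
    rw [← this]; group

end Cfsg.Agent.Lib.Helper90
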