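import Mathlib
import Cfsg.Prelude.Def_MonsterType
import Cfsg.Agent.Lib.Helper90.Invol

set_option autoImplicit false

namespace Cfsg.Agent.Lib.Helper90

/-- Commutators in an extraspecial `2`-subgroup are `1` or the central involution. -/
theorem comm_eq_one_or {G : Type*} [Group G] (Q : Subgroup G)
    (hQ : Cfsg.IsExtraspecial 2 ↥Q) (z : G)
    (hz : ∀ x, x ∈ (Subgroup.center ↥Q).map Q.subtype ↔ x = 1 ∨ x = z)
    (x y : G) (hx : x ∈ Q) (hy : y ∈ Q) :
    x * y * x⁻¹ * y⁻¹ = 1 ∨ x * y * x⁻¹ * y⁻¹ = z := by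
  have hcomm : (⟨x, hx⟩ : Q) * (⟨y, hy⟩ : Q) * (⟨x, hx⟩ : Q)⁻¹ * (⟨y, hy⟩ : Q)⁻¹
      ∈ Subgroup.center ↥Q := by
    rw [← hQ.1.2.2]
    exact Subgroup.commutator_mem_commutator (Subgroup.mem_top _) (Subgroup.mem_top _)
  have hmem : x * y * x⁻¹ * y⁻¹ ∈ (Subgroup.center ↥Q).map Q.subtype := ⟨_, hcomm, rfl⟩
  exact (hz _).mp hmem

/-- Context: an extraspecial-like subgroup `Q` with central involution `z`, `C_G(Q) = {1,z}`,
`C_G(z)` normalising `Q`, a non-central involution `s` of `Q` and `q ∈ Q` moving `s` to `z s`. -/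
structure ExCtx {G : Type*} [Group G] (Q : Subgroup G) (z s q : G) : Prop where
  hzQ : z ∈ Q
  hz1 : z ≠ 1
  hzz : z * z = 1
  hzc : ∀ x ∈ Q, x * z = z * x
  comm : ∀ x ∈ Q, ∀ y ∈ Q, x * y * x⁻¹ * y⁻¹ = 1 ∨ x * y * x⁻¹ * y⁻¹ = z
  cent : ∀ c : G, (∀ x ∈ Q, c * x = x * c) → c = 1 ∨ c = z
  norm : ∀ c : G, c * z = z * c → ∀ x ∈ Q, c * x * c⁻¹ ∈ Q
  hsQ : s ∈ Q
  hss : s * s = 1
  hqQ : q ∈ Q
  hqs : q * s = z * s * q

namespace ExCtx

variable {G : Type*} [Group G] {Q : Subgroup G} {z s q : G}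

theorem zinv (h : ExCtx Q z s q) : z⁻¹ = z := inv_eq_of_mul_eq_one_left h.hzz

theorem sinv (h : ExCtx Q z s q) : s⁻¹ = s := inv_eq_of_mul_eq_one_left h.hss

theorem zs (h : ExCtx Q z s q) : z * s = s * z := (h.hzc s h.hsQ).symm

theorem zq (h : ExCtx Q z s q) : z * q = q * z := (h.hzc q h.hqQ).symm

theorem zqinv (h : ExCtx Q z s q) : z * q⁻¹ = q⁻¹ * z := (h.hzc q⁻¹ (Q.inv_mem h.hqQ)).symm

/-- `q⁻¹ s = z s q⁻¹`. -/
theorem qinv_s (h : ExCtx Q z s q) : q⁻¹ * s = z * s * q⁻¹ := by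
  have h1 : s = q⁻¹ * (z * s) * q := by
    calc s = q⁻¹ * (q * s) := by group
      _ = q⁻¹ * (z * s * q) := by rw [h.hqs]
      _ = q⁻¹ * (z * s) * q := by group
  have h2 : q⁻¹ * (z * s) = z * (q⁻¹ * s) := by
    calc q⁻¹ * (z * s) = (q⁻¹ * z) * s := by group
      _ = (z * q⁻¹) * s := by rw [h.zqinv]
      _ = z * (q⁻¹ * s) := by group
  have h3 : s * q⁻¹ = z * (q⁻¹ * s) := by
    calc s * q⁻¹ = q⁻¹ * (z * s) * q * q⁻¹ := by rw [← h1]
      _ = q⁻¹ * (z * s) := by group
      _ = z * (q⁻¹ * s) := h2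
  calc q⁻¹ * s = (z * z) * (q⁻¹ * s) := by rw [h.hzz, one_mul]
    _ = z * (z * (q⁻¹ * s)) := by group
    _ = z * (s * q⁻¹) := by rw [h3]
    _ = z * s * q⁻¹ := by group

/-- `s q = z q s`. -/
theorem s_q (h : ExCtx Q z s q) : s * q = z * q * s := by
  calc s * q = (z * z) * (s * q) := by rw [h.hzz, one_mul]
    _ = z * (z * s * q) := by group
    _ = z * (q * s) := by rw [h.hqs]
    _ = z * q * s := by group

/-- Every element of `Q` lies in `R = C_Q(s)` or in `q R`. -/
theorem coset (h : ExCtx Q z s q) (x : G) (hx : x ∈ Q) :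
    x * s = s * x ∨ (q⁻¹ * x) * s = s * (q⁻¹ * x) := by
  rcases h.comm x hx s h.hsQ with h1 | h1
  · left
    have : x * s * x⁻¹ * s⁻¹ * (s * x) = s * x := by rw [h1, one_mul]
    rw [← this]; group
  · right
    have h2 : x * s = z * s * x := by
      have : x * s * x⁻¹ * s⁻¹ * (s * x) = z * (s * x) := by rw [h1]
      calc x * s = x * s * x⁻¹ * s⁻¹ * (s * x) := by group
        _ = z * (s * x) := this
        _ = z * s * x := by group
    calc q⁻¹ * x * s = q⁻¹ * (x * s) := by group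
      _ = q⁻¹ * (z * s * x) := by rw [h2]
      _ = (q⁻¹ * z) * s * x := by group
      _ = (z * q⁻¹) * s * x := by rw [h.zqinv]
      _ = z * (q⁻¹ * s) * x := by group
      _ = z * (z * s * q⁻¹) * x := by rw [h.qinv_s]
      _ = (z * z) * s * (q⁻¹ * x) := by group
      _ = s * (q⁻¹ * x) := by rw [h.hzz, one_mul]

/-- An element commuting with `R = C_Q(s)` and with `q` commutes with `Q`. -/
theorem comm_all (h : ExCtx Q z s q) (c : G)
    (hc : ∀ x ∈ Q, x * s = s * x → c * x = x * c) (hcq : c * q = q * c) :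
    ∀ x ∈ Q, c * x = x * c := by
  intro x hx
  rcases h.coset x hx with h1 | h1
  · exact hc x hx h1
  · have h2 := hc (q⁻¹ * x) (Q.mul_mem (Q.inv_mem h.hqQ) hx) h1
    calc c * x = c * q * (q⁻¹ * x) := by group
      _ = q * c * (q⁻¹ * x) := by rw [hcq]
      _ = q * (c * (q⁻¹ * x)) := by group
      _ = q * ((q⁻¹ * x) * c) := by rw [h2]
      _ = x * c := by group

/-- An element of `Q` commuting with `R = C_Q(s)` lies in `{1, z, s, z s}`. -/
theorem centR_Q (h : ExCtx Q z s q) (r : G) (hrQ : r ∈ Q)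
    (hr : ∀ x ∈ Q, x * s = s * x → r * x = x * r) :
    r = 1 ∨ r = z ∨ r = s ∨ r = z * s := by
  by_cases hrq : r * q = q * r
  · rcases h.cent r (h.comm_all r hr hrq) with h1 | h1
    · left; exact h1
    · right; left; exact h1
  · have h1 : q * r * q⁻¹ * r⁻¹ = z := by
      rcases h.comm q h.hqQ r hrQ with h1 | h1
      · exfalso
        apply hrq
        have : q * r * q⁻¹ * r⁻¹ * (r * q) = r * q := by rw [h1, one_mul]
        have h2 : q * r = r * q := by rw [← this]; group
        exact h2.symm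
      · exact h1
    have h2 : q * r = z * r * q := by
      calc q * r = q * r * q⁻¹ * r⁻¹ * (r * q) := by group
        _ = z * (r * q) := by rw [h1]
        _ = z * r * q := by group
    have hrs_R : ∀ x ∈ Q, x * s = s * x → (r * s) * x = x * (r * s) := by
      intro x hx hxs
      calc r * s * x = r * (s * x) := by group
        _ = r * (x * s) := by rw [hxs]
        _ = (r * x) * s := by group
        _ = (x * r) * s := by rw [hr x hx hxs]
        _ = x * (r * s) := by group
    have hrs_q : (r * s) * q = q * (r * s) := by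
      calc r * s * q = r * (s * q) := by group
        _ = r * (z * q * s) := by rw [h.s_q]
        _ = (r * z) * q * s := by group
        _ = (z * r) * q * s := by rw [h.hzc r hrQ]
        _ = (z * r * q) * s := by group
        _ = (q * r) * s := by rw [← h2]
        _ = q * (r * s) := by group
    rcases h.cent (r * s) (h.comm_all (r * s) hrs_R hrs_q) with h3 | h3
    · right; right; left
      have : r = s⁻¹ := eq_inv_of_mul_eq_one_left h3
      rw [this, h.sinv]
    · right; right; right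
      calc r = r * s * s⁻¹ := by group
        _ = z * s⁻¹ := by rw [h3]
        _ = z * s := by rw [h.sinv]

/-- The centraliser in `G` of `R = C_Q(s)` is `{1, z, s, z s}`. -/
theorem centR (h : ExCtx Q z s q) (c : G)
    (hc : ∀ x ∈ Q, x * s = s * x → c * x = x * c) :
    c = 1 ∨ c = z ∨ c = s ∨ c = z * s := by
  have hcz : c * z = z * c := hc z h.hzQ h.zs
  have hcs : c * s = s * c := hc s h.hsQ rfl
  have hcinv_s : c⁻¹ * s = s * c⁻¹ := by
    calc c⁻¹ * s = c⁻¹ * (s * c) * c⁻¹ := by group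
      _ = c⁻¹ * (c * s) * c⁻¹ := by rw [hcs]
      _ = s * c⁻¹ := by group
  have hcqQ : c * q * c⁻¹ ∈ Q := h.norm c hcz q h.hqQ
  have hrQ : c * q * c⁻¹ * q⁻¹ ∈ Q := Q.mul_mem hcqQ (Q.inv_mem h.hqQ)
  have hE2 : c * q * c⁻¹ * s = z * s * (c * q * c⁻¹) := by
    calc c * q * c⁻¹ * s = c * q * (c⁻¹ * s) := by group
      _ = c * q * (s * c⁻¹) := by rw [hcinv_s]
      _ = c * (q * s) * c⁻¹ := by group
      _ = c * (z * s * q) * c⁻¹ := by rw [h.hqs]
      _ = (c * z) * s * q * c⁻¹ := by group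
      _ = (z * c) * s * q * c⁻¹ := by rw [hcz]
      _ = z * (c * s) * q * c⁻¹ := by group
      _ = z * (s * c) * q * c⁻¹ := by rw [hcs]
      _ = z * s * (c * q * c⁻¹) := by group
  have hrs : (c * q * c⁻¹ * q⁻¹) * s = s * (c * q * c⁻¹ * q⁻¹) := by
    calc (c * q * c⁻¹ * q⁻¹) * s = c * q * c⁻¹ * (q⁻¹ * s) := by group
      _ = c * q * c⁻¹ * (z * s * q⁻¹) := by rw [h.qinv_s]
      _ = (c * q * c⁻¹ * z) * s * q⁻¹ := by group
      _ = (z * (c * q * c⁻¹)) * s * q⁻¹ := by rw [h.hzc _ hcqQ]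
      _ = z * (c * q * c⁻¹ * s) * q⁻¹ := by group
      _ = z * (z * s * (c * q * c⁻¹)) * q⁻¹ := by rw [hE2]
      _ = (z * z) * s * (c * q * c⁻¹ * q⁻¹) := by group
      _ = s * (c * q * c⁻¹ * q⁻¹) := by rw [h.hzz, one_mul]
  have hrR : ∀ x ∈ Q, x * s = s * x → (c * q * c⁻¹ * q⁻¹) * x = x * (c * q * c⁻¹ * q⁻¹) := by
    intro x hx hxs
    have hx'Q : q⁻¹ * x * q ∈ Q := Q.mul_mem (Q.mul_mem (Q.inv_mem h.hqQ) hx) h.hqQ
    have hx's : (q⁻¹ * x * q) * s = s * (q⁻¹ * x * q) := by
      calc q⁻¹ * x * q * s = q⁻¹ * x * (q * s) := by group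
        _ = q⁻¹ * x * (z * s * q) := by rw [h.hqs]
        _ = q⁻¹ * (x * z) * s * q := by group
        _ = q⁻¹ * (z * x) * s * q := by rw [h.hzc x hx]
        _ = q⁻¹ * z * (x * s) * q := by group
        _ = q⁻¹ * z * (s * x) * q := by rw [hxs]
        _ = (q⁻¹ * z) * s * x * q := by group
        _ = (z * q⁻¹) * s * x * q := by rw [h.zqinv]
        _ = z * (q⁻¹ * s) * x * q := by group
        _ = z * (z * s * q⁻¹) * x * q := by rw [h.qinv_s]
        _ = (z * z) * s * (q⁻¹ * x * q) := by group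
        _ = s * (q⁻¹ * x * q) := by rw [h.hzz, one_mul]
    have h1 := hc _ hx'Q hx's
    have h2 := hc x hx hxs
    have h1' : c⁻¹ * (q⁻¹ * x * q) = (q⁻¹ * x * q) * c⁻¹ := by
      calc c⁻¹ * (q⁻¹ * x * q) = c⁻¹ * ((q⁻¹ * x * q) * c) * c⁻¹ := by group
        _ = c⁻¹ * (c * (q⁻¹ * x * q)) * c⁻¹ := by rw [h1]
        _ = (q⁻¹ * x * q) * c⁻¹ := by group
    calc (c * q * c⁻¹ * q⁻¹) * x = c * q * (c⁻¹ * (q⁻¹ * x * q)) * q⁻¹ := by group
      _ = c * q * ((q⁻¹ * x * q) * c⁻¹) * q⁻¹ := by rw [h1']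
      _ = (c * x) * q * c⁻¹ * q⁻¹ := by group
      _ = (x * c) * q * c⁻¹ * q⁻¹ := by rw [h2]
      _ = x * (c * q * c⁻¹ * q⁻¹) := by group
  have hqq_s : (q * q) * s = s * (q * q) := by
    calc q * q * s = q * (q * s) := by group
      _ = q * (z * s * q) := by rw [h.hqs]
      _ = (q * z) * s * q := by group
      _ = (z * q) * s * q := by rw [h.hzc q h.hqQ]
      _ = z * (q * s) * q := by group
      _ = z * (z * s * q) * q := by rw [h.hqs]
      _ = (z * z) * s * (q * q) := by group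
      _ = s * (q * q) := by rw [h.hzz, one_mul]
  have hcqq : c * (q * q) = (q * q) * c := hc _ (Q.mul_mem h.hqQ h.hqQ) hqq_s
  have hsq : (c * q * c⁻¹) * (c * q * c⁻¹) = q * q := by
    calc (c * q * c⁻¹) * (c * q * c⁻¹) = c * (q * q) * c⁻¹ := by group
      _ = (q * q) * c * c⁻¹ := by rw [hcqq]
      _ = q * q := by group
  have hcq_eq : c * q * c⁻¹ = (c * q * c⁻¹ * q⁻¹) * q := by group
  have hsqsq : (s * q) * (s * q) = z * (q * q) := by
    calc s * q * (s * q) = s * (q * s) * q := by group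
      _ = s * (z * s * q) * q := by rw [h.hqs]
      _ = (s * z) * s * q * q := by group
      _ = (z * s) * s * q * q := by rw [h.zs]
      _ = z * (s * s) * (q * q) := by group
      _ = z * (q * q) := by rw [h.hss, mul_one]
  rcases h.centR_Q _ hrQ hrR with h1 | h1 | h1 | h1
  · have hcq : c * q = q * c := by
      have : c * q * c⁻¹ = q := by rw [hcq_eq, h1, one_mul]
      calc c * q = c * q * c⁻¹ * c := by group
        _ = q * c := by rw [this]
    rcases h.cent c (h.comm_all c hc hcq) with h2 | h2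
    · left; exact h2
    · right; left; exact h2
  · have hcq : c * q * c⁻¹ = z * q := by rw [hcq_eq, h1]
    have hcsR : ∀ x ∈ Q, x * s = s * x → (c * s) * x = x * (c * s) := by
      intro x hx hxs
      calc c * s * x = c * (s * x) := by group
        _ = c * (x * s) := by rw [hxs]
        _ = (c * x) * s := by group
        _ = (x * c) * s := by rw [hc x hx hxs]
        _ = x * (c * s) := by group
    have hcsq : (c * s) * q = q * (c * s) := by
      have hcq' : c * q = z * q * c := by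
        calc c * q = c * q * c⁻¹ * c := by group
          _ = z * q * c := by rw [hcq]
      calc c * s * q = c * (s * q) := by group
        _ = c * (z * q * s) := by rw [h.s_q]
        _ = (c * z) * q * s := by group
        _ = (z * c) * q * s := by rw [hcz]
        _ = z * (c * q) * s := by group
        _ = z * (z * q * c) * s := by rw [hcq']
        _ = (z * z) * q * (c * s) := by group
        _ = q * (c * s) := by rw [h.hzz, one_mul]
    rcases h.cent (c * s) (h.comm_all (c * s) hcsR hcsq) with h2 | h2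
    · right; right; left
      have : c = s⁻¹ := eq_inv_of_mul_eq_one_left h2
      rw [this, h.sinv]
    · right; right; right
      calc c = c * s * s⁻¹ := by group
        _ = z * s⁻¹ := by rw [h2]
        _ = z * s := by rw [h.sinv]
  · exfalso
    rw [hcq_eq, h1, hsqsq] at hsq
    apply h.hz1
    have : z * (q * q) = 1 * (q * q) := by rw [one_mul]; exact hsq
    exact mul_right_cancel this
  · exfalso
    have h2 : (z * s * q) * (z * s * q) = z * (q * q) := by
      calc z * s * q * (z * s * q) = z * (s * q * z) * (s * q) := by group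
        _ = z * (z * (s * q)) * (s * q) := by rw [h.hzc (s * q) (Q.mul_mem h.hsQ h.hqQ)]
        _ = (z * z) * ((s * q) * (s * q)) := by group
        _ = (s * q) * (s * q) := by rw [h.hzz, one_mul]
        _ = z * (q * q) := hsqsq
    rw [hcq_eq, h1, h2] at hsq
    apply h.hz1
    have : z * (q * q) = 1 * (q * q) := by rw [one_mul]; exact hsq
    exact mul_right_cancel this

end ExCtx

end Cfsg.Agent.Lib.Helper90
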