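import Mathlib

set_option autoImplicit false

namespace Cfsg.Agent.Lib.Helper90

/-- Conjugating an involution `a` by a power of `r`, where `a` inverts `r`. -/
theorem pow_conj_of_inverts {G : Type*} [Group G] (a r : G) (har : a * r * a⁻¹ = r⁻¹) (k : ℕ) :
    r ^ k * a * (r ^ k)⁻¹ = r ^ k * r ^ k * a := by
  have h1 : a * (r ^ k)⁻¹ * a⁻¹ = r ^ k := by
    have h2 : a * r ^ k * a⁻¹ = (r ^ k)⁻¹ := by
      rw [← conj_pow, har, inv_pow]
    have h3 : a * (r ^ k)⁻¹ * a⁻¹ = (a * r ^ k * a⁻¹)⁻¹ := by group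
    rw [h3, h2, inv_inv]
  calc r ^ k * a * (r ^ k)⁻¹ = r ^ k * (a * (r ^ k)⁻¹ * a⁻¹) * a := by group
    _ = r ^ k * r ^ k * a := by rw [h1]

/-- Two involutions whose product has finite order are either conjugate, or there is a
nontrivial element `u` commuting with both such that `u * a` is conjugate to `a` or to `b`
(the central involution of the dihedral group they generate). -/
theorem invol_pair {G : Type*} [Group G] (a b : G) (ha : a * a = 1) (hb : b * b = 1)
    (hfin : IsOfFinOrder (a * b)) :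
    IsConj a b ∨ ∃ u : G, u ≠ 1 ∧ u * a = a * u ∧ u * b = b * u ∧
      (IsConj a (u * a) ∨ IsConj b (u * a)) := by
  have hainv : a⁻¹ = a := inv_eq_of_mul_eq_one_left ha
  have hbinv : b⁻¹ = b := inv_eq_of_mul_eq_one_left hb
  have hrinv : (a * b)⁻¹ = b * a := by rw [mul_inv_rev, hainv, hbinv]
  have har : a * (a * b) * a⁻¹ = (a * b)⁻¹ := by
    rw [hrinv, hainv]
    calc a * (a * b) * a = (a * a) * b * a := by group
      _ = b * a := by rw [ha, one_mul]
  have hbr : b * (a * b) * b⁻¹ = (a * b)⁻¹ := by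
    rw [hrinv, hbinv]
    calc b * (a * b) * b = b * a * (b * b) := by group
      _ = b * a := by rw [hb, mul_one]
  have hb_eq : b = (a * b)⁻¹ * a := by
    rw [hrinv]
    calc b = b * (a * a) := by rw [ha, mul_one]
      _ = b * a * a := by group
  have hn : 0 < orderOf (a * b) := hfin.orderOf_pos
  rcases Nat.even_or_odd' (orderOf (a * b)) with ⟨m, hm | hm⟩
  · -- even order
    right
    have hm0 : m ≠ 0 := by omega
    have hu1 : (a * b) ^ m ≠ 1 := pow_ne_one_of_lt_orderOf hm0 (by omega)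
    have huu : (a * b) ^ m * (a * b) ^ m = 1 := by
      rw [← pow_add, ← two_mul, ← hm]; exact pow_orderOf_eq_one _
    have huinv : ((a * b) ^ m)⁻¹ = (a * b) ^ m := inv_eq_of_mul_eq_one_left huu
    have hua : (a * b) ^ m * a = a * (a * b) ^ m := by
      have h2 : a * (a * b) ^ m * a⁻¹ = (a * b) ^ m := by
        rw [← conj_pow, har, inv_pow, huinv]
      calc (a * b) ^ m * a = (a * (a * b) ^ m * a⁻¹) * a := by rw [h2]
        _ = a * (a * b) ^ m := by group
    have hub : (a * b) ^ m * b = b * (a * b) ^ m := by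
      have h2 : b * (a * b) ^ m * b⁻¹ = (a * b) ^ m := by
        rw [← conj_pow, hbr, inv_pow, huinv]
      calc (a * b) ^ m * b = (b * (a * b) ^ m * b⁻¹) * b := by rw [h2]
        _ = b * (a * b) ^ m := by group
    refine ⟨(a * b) ^ m, hu1, hua, hub, ?_⟩
    rcases Nat.even_or_odd' m with ⟨k, hk | hk⟩
    · left
      rw [isConj_iff]
      refine ⟨(a * b) ^ k, ?_⟩
      rw [pow_conj_of_inverts a (a * b) har k, ← pow_add, ← two_mul, ← hk]
    · right
      rw [isConj_iff]
      refine ⟨(a * b) ^ (k + 1), ?_⟩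
      rw [pow_conj_of_inverts b (a * b) hbr (k + 1), ← pow_add]
      have e1 : k + 1 + (k + 1) = m + 1 := by omega
      rw [e1, pow_succ]
      calc (a * b) ^ m * (a * b) * b = (a * b) ^ m * a * (b * b) := by group
        _ = (a * b) ^ m * a := by rw [hb, mul_one]
  · -- odd order
    left
    rw [isConj_iff]
    refine ⟨(a * b) ^ m, ?_⟩
    rw [pow_conj_of_inverts a (a * b) har m]
    have h1 : (a * b) ^ m * (a * b) ^ m = (a * b)⁻¹ := by
      have h2 : (a * b) ^ m * (a * b) ^ m * (a * b) = 1 := by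
        rw [← pow_add, ← pow_succ, ← two_mul, ← hm]; exact pow_orderOf_eq_one _
      exact eq_inv_of_mul_eq_one_left h2
    rw [h1, ← hb_eq]

end Cfsg.Agent.Lib.Helper90
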