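import Mathlib
import Cfsg.Prelude.Def_MonsterType
import Cfsg.Agent.Lib.Helper90.Invol

set_option autoImplicit false

namespace Cfsg.Agent.Lib.Helper90

/-- If `Q` is an extraspecial `2`-subgroup with `C_G(Q) = Z(Q)` normalised by `C_G(Z(Q))`, and
`T` is a finite `2`-subgroup containing `Q`, then the central involution `z` of `Q` is central
in `T`. -/
theorem center_gen_central_of_two_group {G : Type*} [Group G] [Finite G] (Q : Subgroup G)
    (hL1 : Cfsg.IsExtraspecial 2 ↥Q)
    (hL2 : Subgroup.centralizer (Q : Set G) = ((Subgroup.center ↥Q).map Q.subtype))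
    (z : G) (hz1 : z ≠ 1)
    (hzZ : ∀ x, x ∈ (Subgroup.center ↥Q).map Q.subtype ↔ x = 1 ∨ x = z)
    (hzQ : z ∈ Q)
    (T : Subgroup G) (hT : IsPGroup 2 T) (hQT : Q ≤ T) : ∀ t ∈ T, t * z = z * t := by
  have hfact : Fact (Nat.Prime 2) := ⟨Nat.prime_two⟩
  have hnt : Nontrivial T := by
    refine ⟨⟨⟨z, hQT hzQ⟩, 1, ?_⟩⟩
    intro h
    exact hz1 (congrArg Subtype.val h)
  have hcnt : Nontrivial (Subgroup.center T) := hT.center_nontrivial
  obtain ⟨c, hc⟩ := exists_ne (1 : Subgroup.center T)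
  have hc1 : ((c : T) : G) ≠ 1 := by
    intro h
    apply hc
    ext
    simpa using h
  have hcT : ∀ t ∈ T, t * ((c : T) : G) = ((c : T) : G) * t := by
    intro t ht
    have h := Subgroup.mem_center_iff.mp c.2 ⟨t, ht⟩
    have := congrArg (fun x : T => (x : G)) h
    simpa using this
  have hcZ : ((c : T) : G) ∈ (Subgroup.center ↥Q).map Q.subtype := by
    rw [← hL2, Subgroup.mem_centralizer_iff]
    intro q hq
    exact hcT q (hQT hq)
  rcases (hzZ _).mp hcZ with h | h
  · exact absurd h hc1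
  · rw [← h]; exact hcT

/-- Under the same hypotheses the normaliser of `T` lies in the normaliser of `Q`. -/
theorem normalizer_le_of_two_group_ge {G : Type*} [Group G] [Finite G] (Q : Subgroup G)
    (hL1 : Cfsg.IsExtraspecial 2 ↥Q)
    (hL2 : Subgroup.centralizer (Q : Set G) = ((Subgroup.center ↥Q).map Q.subtype))
    (hL3 : Subgroup.centralizer (((Subgroup.center ↥Q).map Q.subtype) : Set G)
      ≤ Subgroup.normalizer (Q : Set G))
    (T : Subgroup G) (hT : IsPGroup 2 T) (hQT : Q ≤ T) :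
    Subgroup.normalizer (T : Set G) ≤ Subgroup.normalizer (Q : Set G) := by
  obtain ⟨z, hzQ, hz1, hzz, hzZ, hzc⟩ := exists_center_gen Q hL1
  have hzT := center_gen_central_of_two_group Q hL1 hL2 z hz1 hzZ hzQ T hT hQT
  intro g hg
  apply hL3
  -- `g z g⁻¹` centralises `T`, hence `Q`
  have hconj : g * z * g⁻¹ ∈ (Subgroup.center ↥Q).map Q.subtype := by
    rw [← hL2, Subgroup.mem_centralizer_iff]
    intro q hq
    have hq' : g⁻¹ * q * g ∈ T := by
      have := (Subgroup.mem_normalizer_iff.mp (inv_mem hg) q).mp (hQT hq)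
      rwa [inv_inv] at this
    have h1 := hzT _ hq'
    calc q * (g * z * g⁻¹) = g * ((g⁻¹ * q * g) * z) * g⁻¹ := by group
      _ = g * (z * (g⁻¹ * q * g)) * g⁻¹ := by rw [h1]
      _ = g * z * g⁻¹ * q := by group
  have hgz : g * z * g⁻¹ = z := by
    rcases (hzZ _).mp hconj with h | h
    · exfalso
      apply hz1
      have : z = g⁻¹ * (g * z * g⁻¹) * g := by group
      rw [this, h]; group
    · exact h
  rw [Subgroup.mem_centralizer_iff]
  intro x hx
  rcases (hzZ x).mp hx with rfl | rfl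
  · simp
  · calc x * g = g * (g⁻¹ * x * g) := by group
      _ = g * (g⁻¹ * (g * x * g⁻¹) * g) := by rw [hgz]
      _ = g * x := by group

end Cfsg.Agent.Lib.Helper90
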