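import Mathlib

/-!
# 2-groups of rank at most two with an automorphism of order three: the quadratic-map core

`Cfg K Z t`: `K` a 2-subgroup normalized by `t`, `t^3 = 1`, `Z = C_K(t)` central in `K` and
containing all squares of `K`.  Then `Q x = [x, x^t]` is a quadratic map `K/Z → Ω₁(Z)` with polar
form the commutator.  If `K` has no three independent commuting involutions (`RankTwo K`), `Q` has
no zero outside `Z`, and this forces `|K : Z| < 64` (`Cfg.core_bound`).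
-/

set_option autoImplicit false

namespace Cfsg.Agent.Lib.Helper90.R2T

variable {G : Type*} [Group G]

/-- conjugation `t x t⁻¹` -/
def cj (t x : G) : G := t * x * t⁻¹

/-- commutator `x y x⁻¹ y⁻¹` -/
def cm (x y : G) : G := x * y * x⁻¹ * y⁻¹

theorem cj_mul (t x y : G) : cj t (x * y) = cj t x * cj t y := by unfold cj; group

theorem cj_inv (t x : G) : cj t x⁻¹ = (cj t x)⁻¹ := by unfold cj; group

theorem cj_one (t : G) : cj t 1 = 1 := by unfold cj; group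

theorem cj_inj (t : G) {x y : G} (h : cj t x = cj t y) : x = y := by
  unfold cj at h
  exact mul_left_cancel (mul_right_cancel h)

theorem cj_cm (t x y : G) : cj t (cm x y) = cm (cj t x) (cj t y) := by unfold cj cm; group

theorem cj_pow (t x : G) (n : ℕ) : cj t (x ^ n) = cj t x ^ n := by
  induction n with
  | zero => simp [cj_one]
  | succ n ih => rw [pow_succ, pow_succ, cj_mul, ih]

theorem cj_comm_of_comm {s t : G} (hst : s * t = t * s) (x : G) :
    cj t (cj s x) = cj s (cj t x) := by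
  unfold cj
  have h1 : t * s = s * t := hst.symm
  have h2 : s⁻¹ * t⁻¹ = t⁻¹ * s⁻¹ := by rw [← mul_inv_rev, ← mul_inv_rev, hst]
  calc t * (s * x * s⁻¹) * t⁻¹ = (t * s) * x * (s⁻¹ * t⁻¹) := by group
    _ = (s * t) * x * (t⁻¹ * s⁻¹) := by rw [h1, h2]
    _ = s * (t * x * t⁻¹) * s⁻¹ := by group

theorem cm_eq_one_iff {x y : G} : cm x y = 1 ↔ x * y = y * x := by
  unfold cm
  constructor
  · intro h
    have : x * y * x⁻¹ * y⁻¹ * (y * x) = 1 * (y * x) := by rw [h]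
    rw [one_mul] at this
    rw [← this]; group
  · intro h
    rw [h]; group

/-- the quadratic map -/
def Q (t x : G) : G := cm x (cj t x)

theorem Q_cj {s t : G} (hst : s * t = t * s) (x : G) : Q t (cj s x) = cj s (Q t x) := by
  unfold Q
  rw [cj_comm_of_comm hst, cj_cm]

/-- if `x⁻¹ x^t` is fixed by `t` and is a 2-element, and `t^3 = 1`, then `x^t = x` -/
theorem cj_eq_self_of {t x : G} (ht3 : t * t * t = 1)
    (hfz : cj t (x⁻¹ * cj t x) = x⁻¹ * cj t x) (h2 : ∃ n : ℕ, (x⁻¹ * cj t x) ^ 2 ^ n = 1) :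
    cj t x = x := by
  obtain ⟨z, hz⟩ : ∃ z, z = x⁻¹ * cj t x := ⟨_, rfl⟩
  rw [← hz] at hfz h2
  have e1 : cj t x = x * z := by rw [hz]; group
  have e2 : cj t (cj t x) = x * z * z := by rw [e1, cj_mul, e1, hfz]
  have e3 : cj t (cj t (cj t x)) = x * z * z * z := by rw [e2, cj_mul, cj_mul, e1, hfz]
  have e0 : cj t (cj t (cj t x)) = x := by
    have h1 : cj t (cj t (cj t x)) = (t * t * t) * x * (t * t * t)⁻¹ := by unfold cj; group
    rw [h1, ht3]; group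
  rw [e0] at e3
  have e4 : z * z * z = 1 := by
    have : x * (z * z * z) = x * 1 := by
      rw [mul_one]
      calc x * (z * z * z) = x * z * z * z := by group
        _ = x := e3.symm
    exact mul_left_cancel this
  have e5 : z ^ 3 = 1 := by
    rw [pow_succ, pow_two]; exact e4
  obtain ⟨n, hn⟩ := h2
  have e6 : z = 1 := by
    have d1 : orderOf z ∣ 3 := orderOf_dvd_of_pow_eq_one e5
    have d2 : orderOf z ∣ 2 ^ n := orderOf_dvd_of_pow_eq_one hn
    have d3 : orderOf z ∣ Nat.gcd 3 (2 ^ n) := Nat.dvd_gcd d1 d2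
    have hg : Nat.gcd 3 (2 ^ n) = 1 := Nat.Coprime.pow_right n (by norm_num)
    rw [hg] at d3
    exact orderOf_eq_one_iff.mp (Nat.dvd_one.mp d3)
  rw [e6, mul_one] at e1
  exact e1

/-- a nontrivial 2-element has a power which is an involution -/
theorem exists_invol_pow {x : G} (hx : x ≠ 1) (h2 : ∃ n : ℕ, x ^ 2 ^ n = 1) :
    ∃ k : ℕ, x ^ k ≠ 1 ∧ x ^ k * x ^ k = 1 := by
  obtain ⟨n, hn⟩ := h2
  have d2 : orderOf x ∣ 2 ^ n := orderOf_dvd_of_pow_eq_one hn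
  obtain ⟨m, -, hm⟩ := (Nat.dvd_prime_pow Nat.prime_two).mp d2
  have hm1 : m ≠ 0 := by
    rintro rfl
    rw [pow_zero] at hm
    exact hx (orderOf_eq_one_iff.mp hm)
  obtain ⟨j, rfl⟩ := Nat.exists_eq_succ_of_ne_zero hm1
  refine ⟨2 ^ j, ?_, ?_⟩
  · intro h
    have := orderOf_dvd_of_pow_eq_one h
    rw [hm] at this
    have h3 := Nat.le_of_dvd (by positivity) this
    have : 2 ^ j < 2 ^ (j + 1) := Nat.pow_lt_pow_right (by norm_num) (Nat.lt_succ_self j)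
    omega
  · rw [← pow_add, ← two_mul, ← pow_succ', ← hm]
    exact pow_orderOf_eq_one x

omit [Group G] in
/-- a finite set covered by `l.length` injective pullbacks of `S` -/
theorem ncard_le_of_cover [Finite G] (S : Set G) : ∀ (l : List (G → G)) (T : Set G),
    (∀ f ∈ l, Function.Injective f) → (∀ w ∈ T, ∃ f ∈ l, f w ∈ S) →
      T.ncard ≤ l.length * S.ncard
  | [], T, _, h => by
    have : T = ∅ := by
      ext w
      simp only [Set.mem_empty_iff_false, iff_false]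
      intro hw
      obtain ⟨f, hf, -⟩ := h w hw
      simp at hf
    rw [this]; simp
  | f :: l, T, hinj, h => by
    have h1 : T ⊆ {w | w ∈ T ∧ f w ∈ S} ∪ {w | w ∈ T ∧ ∃ f' ∈ l, f' w ∈ S} := by
      intro w hw
      obtain ⟨f', hf', hw'⟩ := h w hw
      rcases List.mem_cons.mp hf' with rfl | hf''
      · left; exact ⟨hw, hw'⟩
      · right; exact ⟨hw, f', hf'', hw'⟩
    have h2 : ({w | w ∈ T ∧ f w ∈ S} : Set G).ncard ≤ S.ncard :=
      Set.ncard_le_ncard_of_injOn f (fun w hw => hw.2)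
        (fun a _ b _ hab => hinj f List.mem_cons_self hab) (Set.toFinite S)
    have h3 := ncard_le_of_cover S l {w | w ∈ T ∧ ∃ f' ∈ l, f' w ∈ S}
      (fun f' hf' => hinj f' (List.mem_cons_of_mem _ hf')) (fun w hw => hw.2)
    calc T.ncard ≤ ({w | w ∈ T ∧ f w ∈ S} ∪ {w | w ∈ T ∧ ∃ f' ∈ l, f' w ∈ S}).ncard :=
          Set.ncard_le_ncard h1 (Set.toFinite _)
      _ ≤ ({w | w ∈ T ∧ f w ∈ S} : Set G).ncard +
            ({w | w ∈ T ∧ ∃ f' ∈ l, f' w ∈ S} : Set G).ncard := Set.ncard_union_le _ _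
      _ ≤ S.ncard + l.length * S.ncard := Nat.add_le_add h2 h3
      _ = (f :: l).length * S.ncard := by rw [List.length_cons]; ring

/-- index-two step -/
theorem ncard_le_two_mul [Finite G] (T S : Set G)
    (h : ∀ w₁ ∈ T, w₁ ∉ S → ∀ w ∈ T, w ∉ S → w₁⁻¹ * w ∈ S) : T.ncard ≤ 2 * S.ncard := by
  by_cases hTS : ∃ w₁ ∈ T, w₁ ∉ S
  · obtain ⟨w₁, hw₁, hw₁S⟩ := hTS
    have := ncard_le_of_cover S [id, fun w => w₁⁻¹ * w] T (by
        intro f hf
        simp only [List.mem_cons, List.not_mem_nil, or_false] at hf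
        rcases hf with rfl | rfl
        · exact Function.injective_id
        · exact mul_right_injective _)
      (by
        intro w hw
        by_cases hwS : w ∈ S
        · exact ⟨id, by simp, hwS⟩
        · exact ⟨fun w => w₁⁻¹ * w, by simp, h w₁ hw₁ hw₁S w hw hwS⟩)
    simpa using this
  · push Not at hTS
    calc T.ncard ≤ S.ncard := Set.ncard_le_ncard hTS (Set.toFinite S)
      _ ≤ 2 * S.ncard := by omega

theorem exists_mem_not_mem [Finite G] (K : Subgroup G) (s : Finset G)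
    (hs : s.card < Nat.card K) : ∃ x ∈ K, x ∉ s := by
  by_contra hno
  push Not at hno
  have h1 : (K : Set G) ⊆ (s : Set G) := fun x hx => hno x hx
  have h2 := Set.ncard_le_ncard h1 (s.finite_toSet)
  rw [Set.ncard_coe_finset] at h2
  have h3 : Nat.card K = (K : Set G).ncard := Nat.card_coe_set_eq (K : Set G)
  omega

/-- configuration: `K` a 2-subgroup normalized by `t` (`t^3 = 1`), `Z = C_K(t)` central in `K`
and containing all squares of `K` -/
structure Cfg (K Z : Subgroup G) (t : G) : Prop where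
  hZK : Z ≤ K
  hfix : ∀ x, x ∈ Z ↔ x ∈ K ∧ cj t x = x
  ht3 : t * t * t = 1
  hnorm : ∀ x ∈ K, cj t x ∈ K
  hsq : ∀ x ∈ K, x * x ∈ Z
  hcen : ∀ z ∈ Z, ∀ x ∈ K, z * x = x * z
  h2 : ∀ x ∈ K, ∃ n : ℕ, x ^ 2 ^ n = 1

/-- no three independent commuting involutions -/
def RankTwo (K : Subgroup G) : Prop :=
  ∀ a ∈ K, ∀ b ∈ K, ∀ c ∈ K, a * a = 1 → b * b = 1 → c * c = 1 → a * b = b * a → a * c = c * a →
    b * c = c * b → a ≠ 1 → b ≠ 1 → a ≠ b → c = 1 ∨ c = a ∨ c = b ∨ c = a * b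

namespace Cfg

variable {K Z : Subgroup G} {t : G}

theorem cj3 (h : Cfg K Z t) (x : G) : cj t (cj t (cj t x)) = x := by
  have h1 : cj t (cj t (cj t x)) = (t * t * t) * x * (t * t * t)⁻¹ := by unfold cj; group
  rw [h1, h.ht3]; group

theorem fixZ (h : Cfg K Z t) {z : G} (hz : z ∈ Z) : cj t z = z := ((h.hfix z).mp hz).2

theorem zcomm (h : Cfg K Z t) {z z' : G} (hz : z ∈ Z) (hz' : z' ∈ Z) : z * z' = z' * z :=
  h.hcen z hz z' (h.hZK hz')

theorem cm_mem (h : Cfg K Z t) {x y : G} (hx : x ∈ K) (hy : y ∈ K) : cm x y ∈ Z := by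
  have e : cm x y = (x * y) * (x * y) * ((y⁻¹ * x⁻¹ * y) * (y⁻¹ * x⁻¹ * y)) * (y⁻¹ * y⁻¹) := by
    unfold cm; group
  rw [e]
  exact Z.mul_mem (Z.mul_mem (h.hsq _ (K.mul_mem hx hy))
    (h.hsq _ (K.mul_mem (K.mul_mem (K.inv_mem hy) (K.inv_mem hx)) hy))) (h.hsq _ (K.inv_mem hy))

theorem cm_Z_left (h : Cfg K Z t) {z y : G} (hz : z ∈ Z) (hy : y ∈ K) : cm z y = 1 := by
  unfold cm; rw [h.hcen z hz y hy]; group

theorem cm_Z_right (h : Cfg K Z t) {x z : G} (hx : x ∈ K) (hz : z ∈ Z) : cm x z = 1 := by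
  unfold cm; rw [← h.hcen z hz x hx]; group

theorem cm_mul_left (h : Cfg K Z t) {x x' y : G} (hx : x ∈ K) (hx' : x' ∈ K) (hy : y ∈ K) :
    cm (x * x') y = cm x' y * cm x y := by
  have hc := h.cm_mem hx' hy
  calc cm (x * x') y = x * cm x' y * (y * x⁻¹ * y⁻¹) := by unfold cm; group
    _ = cm x' y * x * (y * x⁻¹ * y⁻¹) := by rw [← h.hcen _ hc x hx]
    _ = cm x' y * cm x y := by unfold cm; group

theorem cm_sq (h : Cfg K Z t) {x y : G} (hx : x ∈ K) (hy : y ∈ K) : cm x y * cm x y = 1 := by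
  rw [← h.cm_mul_left hx hx hy]
  exact h.cm_Z_left (h.hsq x hx) hy

theorem cm_inv_self (h : Cfg K Z t) {x y : G} (hx : x ∈ K) (hy : y ∈ K) :
    (cm x y)⁻¹ = cm x y := inv_eq_of_mul_eq_one_right (h.cm_sq hx hy)

theorem cm_symm (h : Cfg K Z t) {x y : G} (hx : x ∈ K) (hy : y ∈ K) : cm y x = cm x y := by
  have e : cm y x = (cm x y)⁻¹ := by unfold cm; group
  rw [e, h.cm_inv_self hx hy]

theorem cm_mul_right (h : Cfg K Z t) {x y y' : G} (hx : x ∈ K) (hy : y ∈ K) (hy' : y' ∈ K) :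
    cm x (y * y') = cm x y * cm x y' := by
  rw [h.cm_symm (K.mul_mem hy hy') hx, h.cm_mul_left hy hy' hx, h.cm_symm hx hy',
    h.cm_symm hx hy]
  exact h.zcomm (h.cm_mem hx hy') (h.cm_mem hx hy)

theorem cm_inv_left (h : Cfg K Z t) {x y : G} (hx : x ∈ K) (hy : y ∈ K) :
    cm x⁻¹ y = cm x y := by
  have e := h.cm_mul_left (K.inv_mem hx) hx hy
  have e1 : cm (x⁻¹ * x) y = 1 := by unfold cm; group
  rw [e1] at e
  have e2 : cm x⁻¹ y = (cm x y)⁻¹ := (inv_eq_of_mul_eq_one_right e.symm).symm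
  rw [e2, h.cm_inv_self hx hy]

theorem cm_inv_right (h : Cfg K Z t) {x y : G} (hx : x ∈ K) (hy : y ∈ K) :
    cm x y⁻¹ = cm x y := by
  rw [h.cm_symm (K.inv_mem hy) hx, h.cm_inv_left hy hx, h.cm_symm hx hy]

theorem cm_cj (h : Cfg K Z t) {x y : G} (hx : x ∈ K) (hy : y ∈ K) :
    cm (cj t x) (cj t y) = cm x y := by
  rw [← cj_cm, h.fixZ (h.cm_mem hx hy)]

theorem mem_Z_of (h : Cfg K Z t) {x : G} (hx : x ∈ K) (h1 : x⁻¹ * cj t x ∈ Z) : x ∈ Z := by
  have := cj_eq_self_of h.ht3 (h.fixZ h1) (h.h2 _ (h.hZK h1))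
  exact (h.hfix x).mpr ⟨hx, this⟩

theorem nrm_mem (h : Cfg K Z t) {x : G} (hx : x ∈ K) : x * cj t x * cj t (cj t x) ∈ Z := by
  have hx1 := h.hnorm x hx
  have hx2 := h.hnorm _ hx1
  have hn : x * cj t x * cj t (cj t x) ∈ K := K.mul_mem (K.mul_mem hx hx1) hx2
  apply h.mem_Z_of hn
  have e : (x * cj t x * cj t (cj t x))⁻¹ * cj t (x * cj t x * cj t (cj t x)) =
      cm (x * cj t x * cj t (cj t x))⁻¹ x⁻¹ := by
    rw [cj_mul, cj_mul, h.cj3]
    unfold cm; group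
  rw [e]
  exact h.cm_mem (K.inv_mem hn) (K.inv_mem hx)

theorem Q_mem (h : Cfg K Z t) {x : G} (hx : x ∈ K) : Q t x ∈ Z := h.cm_mem hx (h.hnorm x hx)

theorem Q_sq (h : Cfg K Z t) {x : G} (hx : x ∈ K) : Q t x * Q t x = 1 :=
  h.cm_sq hx (h.hnorm x hx)

theorem cm_cross (h : Cfg K Z t) {x y : G} (hx : x ∈ K) (hy : y ∈ K) :
    cm y (cj t x) * cm x (cj t y) = cm x y := by
  have hx1 := h.hnorm x hx
  have hx2 := h.hnorm _ hx1
  have hy1 := h.hnorm y hy
  have hn := h.nrm_mem hx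
  have e1 : cj t (cj t x) = (x * cj t x)⁻¹ * (x * cj t x * cj t (cj t x)) := by group
  have s1 : cm y (cj t x) = cm (cj t y) (cj t (cj t x)) := (h.cm_cj hy hx1).symm
  have s2 : cm (cj t y) (cj t (cj t x)) = cm (cj t y) (x * cj t x)⁻¹ := by
    have hk : (x * cj t x)⁻¹ ∈ K := K.inv_mem (K.mul_mem hx hx1)
    calc cm (cj t y) (cj t (cj t x))
        = cm (cj t y) ((x * cj t x)⁻¹ * (x * cj t x * cj t (cj t x))) := by rw [← e1]
      _ = cm (cj t y) (x * cj t x)⁻¹ * cm (cj t y) (x * cj t x * cj t (cj t x)) :=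
          h.cm_mul_right hy1 hk (h.hZK hn)
      _ = cm (cj t y) (x * cj t x)⁻¹ := by rw [h.cm_Z_right hy1 hn, mul_one]
  have s3 : cm (cj t y) (x * cj t x)⁻¹ = cm (cj t y) (x * cj t x) :=
    h.cm_inv_right hy1 (K.mul_mem hx hx1)
  have s4 : cm (cj t y) (x * cj t x) = cm (cj t y) x * cm (cj t y) (cj t x) :=
    h.cm_mul_right hy1 hx hx1
  have s5 : cm (cj t y) (cj t x) = cm y x := h.cm_cj hy hx
  have s6 : cm (cj t y) x = cm x (cj t y) := h.cm_symm hx hy1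
  have s7 : cm y x = cm x y := h.cm_symm hx hy
  rw [s1, s2, s3, s4, s5, s6, s7]
  have hA := h.cm_mem hx hy1
  have hB := h.cm_mem hx hy
  rw [h.zcomm hA hB, mul_assoc, h.cm_sq hx hy1, mul_one]

theorem Q_mul (h : Cfg K Z t) {x y : G} (hx : x ∈ K) (hy : y ∈ K) :
    Q t (x * y) = Q t x * Q t y * cm x y := by
  have hx1 := h.hnorm x hx
  have hy1 := h.hnorm y hy
  have hA := h.cm_mem hy hx1
  have hB := h.cm_mem hx hx1
  have hC := h.cm_mem hy hy1
  unfold Q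
  rw [cj_mul, h.cm_mul_right (K.mul_mem hx hy) hx1 hy1, h.cm_mul_left hx hy hx1,
    h.cm_mul_left hx hy hy1, ← h.cm_cross hx hy, h.zcomm hA hB]
  have hcomm : Commute (cm y (cj t x)) (cm y (cj t y)) := h.zcomm hA hC
  exact hcomm.mul_mul_mul_comm _ _

theorem Q_Z (h : Cfg K Z t) {z : G} (hz : z ∈ Z) : Q t z = 1 := by
  unfold Q; rw [h.fixZ hz]; unfold cm; group

theorem Q_mul_Z (h : Cfg K Z t) {x z : G} (hx : x ∈ K) (hz : z ∈ Z) : Q t (x * z) = Q t x := by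
  rw [h.Q_mul hx (h.hZK hz), h.cm_Z_right hx hz, h.Q_Z hz, mul_one, mul_one]

theorem Q_Z_mul (h : Cfg K Z t) {x z : G} (hx : x ∈ K) (hz : z ∈ Z) : Q t (z * x) = Q t x := by
  rw [h.hcen z hz x hx, h.Q_mul_Z hx hz]

theorem Q_ne_one (h : Cfg K Z t) (hR : RankTwo K) {z₁ : G} (hz₁ : z₁ ∈ Z) (hz₁ne : z₁ ≠ 1)
    (hz₁sq : z₁ * z₁ = 1) {x : G} (hx : x ∈ K) (hxZ : x ∉ Z) : Q t x ≠ 1 := by
  intro hq
  have hx1 := h.hnorm x hx
  have c01 : Commute x (cj t x) := cm_eq_one_iff.mp hq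
  have c12 : Commute (cj t x) (cj t (cj t x)) := by
    have := congrArg (cj t) c01.eq
    rw [cj_mul, cj_mul] at this
    exact this
  have c20 : Commute (cj t (cj t x)) x := by
    have := congrArg (cj t) c12.eq
    rw [cj_mul, cj_mul, h.cj3] at this
    exact this
  obtain ⟨y, hy⟩ : ∃ y, y = cj t x * x⁻¹ := ⟨_, rfl⟩
  have hyK : y ∈ K := by rw [hy]; exact K.mul_mem hx1 (K.inv_mem hx)
  have hy' : cj t y = cj t (cj t x) * (cj t x)⁻¹ := by rw [hy, cj_mul, cj_inv]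
  have hy'K : cj t y ∈ K := h.hnorm y hyK
  have key : y ∉ Z := by
    intro hyZ
    apply hxZ
    apply h.mem_Z_of hx
    have : x⁻¹ * cj t x = y := by
      rw [hy]
      exact (c01.inv_left).eq
    rw [this]; exact hyZ
  have hyy : y * y = 1 := by
    have hsq := h.fixZ (h.hsq x hx)
    rw [cj_mul] at hsq
    rw [hy]
    calc cj t x * x⁻¹ * (cj t x * x⁻¹) = cj t x * (x⁻¹ * cj t x) * x⁻¹ := by group
      _ = cj t x * (cj t x * x⁻¹) * x⁻¹ := by rw [(c01.inv_left).eq]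
      _ = (cj t x * cj t x) * (x * x)⁻¹ := by group
      _ = 1 := by rw [hsq]; group
  have hy'y' : cj t y * cj t y = 1 := by rw [← cj_mul, hyy, cj_one]
  have hy1 : y ≠ 1 := fun h1 => key (h1 ▸ Z.one_mem)
  have hy'1 : cj t y ≠ 1 := fun h1 => hy1 (cj_inj t (by rw [h1, cj_one]))
  have hyy' : y ≠ cj t y := fun h1 => key ((h.hfix y).mpr ⟨hyK, h1.symm⟩)
  have hcomm : y * cj t y = cj t y * y := by
    rw [hy', hy]
    have a1 : Commute (cj t x) (cj t (cj t x)) := c12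
    have a2 : Commute (cj t x) (cj t x)⁻¹ := (Commute.refl _).inv_right
    have a3 : Commute x⁻¹ (cj t (cj t x)) := c20.symm.inv_left
    have a4 : Commute x⁻¹ (cj t x)⁻¹ := c01.inv_inv
    exact ((a1.mul_right a2).mul_left (a3.mul_right a4)).eq
  have hz₁K := h.hZK hz₁
  rcases hR y hyK (cj t y) hy'K z₁ hz₁K hyy hy'y' hz₁sq hcomm (h.hcen z₁ hz₁ y hyK).symm
      (h.hcen z₁ hz₁ _ hy'K).symm hy1 hy'1 hyy' with h1 | h1 | h1 | h1
  · exact hz₁ne h1
  · exact key (h1 ▸ hz₁)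
  · have h2 : cj t y ∈ Z := h1 ▸ hz₁
    have h3 := h.fixZ h2
    exact hyy' (cj_inj t h3).symm
  · have h2 : y * cj t y ∈ Z := h1 ▸ hz₁
    have h3 := h.fixZ h2
    rw [cj_mul, hcomm] at h3
    have h4 : cj t (cj t y) = y := mul_left_cancel h3
    have h5 := congrArg (cj t) h4
    rw [h.cj3] at h5
    exact hyy' h5

/-- halving: for `T ⊆ K` closed under `w₁⁻¹ w` and `v ∈ K`, the elements of `T` with
`[w, v] ∈ {1, a}` are at least half of `T` -/
theorem half_bound [Finite G] (h : Cfg K Z t) (hR : RankTwo K) {a : G} (haZ : a ∈ Z)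
    (haa : a * a = 1) (ha1 : a ≠ 1) (T : Set G) (hTK : ∀ w ∈ T, w ∈ K)
    (hT : ∀ w₁ ∈ T, ∀ w ∈ T, w₁⁻¹ * w ∈ T) {v : G} (hv : v ∈ K) :
    T.ncard ≤ 2 * ({w | w ∈ T ∧ (cm w v = 1 ∨ cm w v = a)} : Set G).ncard := by
  apply ncard_le_two_mul
  intro w₁ hw₁ hw₁n w hw hwn
  have hw₁K := hTK w₁ hw₁
  have hwK := hTK w hw
  have hb₁Z := h.cm_mem hw₁K hv
  have heZ := h.cm_mem hwK hv
  have hb1 : cm w₁ v ≠ 1 := fun h1 => hw₁n ⟨hw₁, Or.inl h1⟩
  have hba : cm w₁ v ≠ a := fun h1 => hw₁n ⟨hw₁, Or.inr h1⟩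
  have he1 : cm w v ≠ 1 := fun h1 => hwn ⟨hw, Or.inl h1⟩
  have hea : cm w v ≠ a := fun h1 => hwn ⟨hw, Or.inr h1⟩
  have key := hR a (h.hZK haZ) (cm w₁ v) (h.hZK hb₁Z) (cm w v) (h.hZK heZ) haa
    (h.cm_sq hw₁K hv) (h.cm_sq hwK hv) (h.zcomm haZ hb₁Z) (h.zcomm haZ heZ) (h.zcomm hb₁Z heZ)
    ha1 hb1 (Ne.symm hba)
  have e : cm (w₁⁻¹ * w) v = cm w v * cm w₁ v := by
    rw [h.cm_mul_left (K.inv_mem hw₁K) hwK hv, h.cm_inv_left hw₁K hv]
  refine ⟨hT w₁ hw₁ w hw, ?_⟩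
  rw [e]
  rcases key with k | k | k | k
  · exact absurd k he1
  · exact absurd k hea
  · left; rw [k]; exact h.cm_sq hw₁K hv
  · right; rw [k, mul_assoc, h.cm_sq hw₁K hv, mul_one]

/-- **Core bound**: an anisotropic quadratic map `K/Z → Ω₁(Z)` with `|Ω₁(Z)| ≤ 4` forces
`|K : Z| < 64`. -/
theorem core_bound [Finite G] (h : Cfg K Z t) (hR : RankTwo K) :
    Nat.card K < 64 * Nat.card Z := by
  classical
  by_contra hcon
  push Not at hcon
  have hZpos : 0 < Nat.card Z := Nat.card_pos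
  have hKc : Nat.card K = (K : Set G).ncard := Nat.card_coe_set_eq (K : Set G)
  have hZc : Nat.card Z = (Z : Set G).ncard := Nat.card_coe_set_eq (Z : Set G)
  have hZne : Z ≠ ⊥ := by
    intro hZ
    have hsq1 : ∀ x ∈ K, x * x = 1 := fun x hx => by
      have := h.hsq x hx
      rw [hZ, Subgroup.mem_bot] at this
      exact this
    have hcomm : ∀ x ∈ K, ∀ y ∈ K, x * y = y * x := fun x hx y hy => by
      have := h.cm_mem hx hy
      rw [hZ, Subgroup.mem_bot] at this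
      exact cm_eq_one_iff.mp this
    have hcard : 64 ≤ Nat.card K := by
      rw [hZ] at hcon
      simpa using hcon
    obtain ⟨a, haK, ha⟩ := exists_mem_not_mem K {1} (by rw [Finset.card_singleton]; omega)
    obtain ⟨b, hbK, hb⟩ := exists_mem_not_mem K {1, a}
      (lt_of_le_of_lt Finset.card_le_two (by omega))
    obtain ⟨c, hcK, hc⟩ := exists_mem_not_mem K {1, a, b, a * b}
      (lt_of_le_of_lt Finset.card_le_four (by omega))
    simp only [Finset.mem_singleton, Finset.mem_insert, not_or] at ha hb hc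
    rcases hR a haK b hbK c hcK (hsq1 a haK) (hsq1 b hbK) (hsq1 c hcK) (hcomm a haK b hbK)
      (hcomm a haK c hcK) (hcomm b hbK c hcK) ha hb.1 (Ne.symm hb.2) with h1 | h1 | h1 | h1
    · exact hc.1 h1
    · exact hc.2.1 h1
    · exact hc.2.2.1 h1
    · exact hc.2.2.2 h1
  obtain ⟨z₁, hz₁Z, hz₁ne, hz₁sq⟩ : ∃ z ∈ Z, z ≠ 1 ∧ z * z = 1 := by
    obtain ⟨⟨z, hzZ⟩, hz1⟩ := (Subgroup.ne_bot_iff_exists_ne_one).mp hZne
    have hz1' : z ≠ 1 := fun h1 => hz1 (Subtype.ext h1)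
    obtain ⟨k, hk1, hk2⟩ := exists_invol_pow hz1' (h.h2 z (h.hZK hzZ))
    exact ⟨z ^ k, Z.pow_mem hzZ k, hk1, hk2⟩
  obtain ⟨x₀, hx₀K, hx₀Z⟩ : ∃ x ∈ K, x ∉ Z := by
    by_contra hno
    push Not at hno
    have hle : K ≤ Z := hno
    have := Subgroup.card_le_of_le hle
    omega
  have hQZ : ∀ x ∈ K, Q t x = 1 → x ∈ Z := fun x hx hq => by
    by_contra hxZ
    exact h.Q_ne_one hR hz₁Z hz₁ne hz₁sq hx hxZ hq
  obtain ⟨a, ha⟩ : ∃ a, a = Q t x₀ := ⟨_, rfl⟩
  have haZ : a ∈ Z := ha ▸ h.Q_mem hx₀K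
  have haa : a * a = 1 := by rw [ha]; exact h.Q_sq hx₀K
  have ha1 : a ≠ 1 := by rw [ha]; exact h.Q_ne_one hR hz₁Z hz₁ne hz₁sq hx₀K hx₀Z
  have hL1a := h.half_bound hR haZ haa ha1 (K : Set G) (fun w hw => hw)
    (fun w₁ hw₁ w hw => K.mul_mem (K.inv_mem hw₁) hw) hx₀K
  have hL1b : ({w | w ∈ (K : Set G) ∧ (cm w x₀ = 1 ∨ cm w x₀ = a)} : Set G).ncard ≤
      2 * ({w | w ∈ K ∧ cm w x₀ = 1} : Set G).ncard := by
    apply ncard_le_two_mul
    rintro w₁ ⟨hw₁K, hw₁⟩ hw₁n w ⟨hwK, hw⟩ hwn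
    have e1 : cm w₁ x₀ = a := by
      rcases hw₁ with h1 | h1
      · exact absurd ⟨hw₁K, h1⟩ hw₁n
      · exact h1
    have e2 : cm w x₀ = a := by
      rcases hw with h1 | h1
      · exact absurd ⟨hwK, h1⟩ hwn
      · exact h1
    refine ⟨K.mul_mem (K.inv_mem hw₁K) hwK, ?_⟩
    rw [h.cm_mul_left (K.inv_mem hw₁K) hwK hx₀K, h.cm_inv_left hw₁K hx₀K, e1, e2, haa]
  have hC₀ : ∀ w₁ ∈ ({w | w ∈ K ∧ cm w x₀ = 1} : Set G),
      ∀ w ∈ ({w | w ∈ K ∧ cm w x₀ = 1} : Set G),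
        w₁⁻¹ * w ∈ ({w | w ∈ K ∧ cm w x₀ = 1} : Set G) := by
    rintro w₁ ⟨hw₁K, hw₁⟩ w ⟨hwK, hw⟩
    refine ⟨K.mul_mem (K.inv_mem hw₁K) hwK, ?_⟩
    rw [h.cm_mul_left (K.inv_mem hw₁K) hwK hx₀K, h.cm_inv_left hw₁K hx₀K, hw₁, hw, mul_one]
  obtain ⟨y₁, ⟨hy₁K, hy₁x⟩, hb1, hba⟩ :
      ∃ y₁ ∈ ({w | w ∈ K ∧ cm w x₀ = 1} : Set G), Q t y₁ ≠ 1 ∧ Q t y₁ ≠ a := by
    by_contra hno
    push Not at hno
    have hcov := ncard_le_of_cover (Z : Set G) [id, fun w => w * x₀]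
      {w | w ∈ K ∧ cm w x₀ = 1} (by
        intro f hf
        simp only [List.mem_cons, List.not_mem_nil, or_false] at hf
        rcases hf with rfl | rfl
        · exact Function.injective_id
        · exact mul_left_injective _)
      (by
        rintro w ⟨hwK, hwx⟩
        by_cases hq : Q t w = 1
        · exact ⟨id, by simp, hQZ w hwK hq⟩
        · refine ⟨fun w => w * x₀, by simp, ?_⟩
          have hqa := hno w ⟨hwK, hwx⟩ hq
          apply hQZ _ (K.mul_mem hwK hx₀K)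
          rw [h.Q_mul hwK hx₀K, hqa, ← ha, hwx, mul_one, haa])
    have hcov' : ({w | w ∈ K ∧ cm w x₀ = 1} : Set G).ncard ≤ 2 * (Z : Set G).ncard := by
      simpa using hcov
    have hfin : Nat.card K ≤ 8 * Nat.card Z := by
      calc Nat.card K = (K : Set G).ncard := hKc
        _ ≤ 2 * _ := hL1a
        _ ≤ 2 * (2 * _) := Nat.mul_le_mul_left 2 hL1b
        _ ≤ 2 * (2 * (2 * (Z : Set G).ncard)) :=
            Nat.mul_le_mul_left 2 (Nat.mul_le_mul_left 2 hcov')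
        _ = 8 * Nat.card Z := by rw [hZc]; ring
    omega
  obtain ⟨b, hb⟩ : ∃ b, b = Q t y₁ := ⟨_, rfl⟩
  rw [← hb] at hb1 hba
  have hbZ : b ∈ Z := hb ▸ h.Q_mem hy₁K
  have hbb : b * b = 1 := by rw [hb]; exact h.Q_sq hy₁K
  have hL3 := h.half_bound hR haZ haa ha1 {w | w ∈ K ∧ cm w x₀ = 1} (fun w hw => hw.1) hC₀ hy₁K
  have hL4 := ncard_le_of_cover (Z : Set G)
      [id, fun w => w * x₀, fun w => w * y₁, fun w => w * (y₁ * x₀)]
      {w | w ∈ ({w | w ∈ K ∧ cm w x₀ = 1} : Set G) ∧ (cm w y₁ = 1 ∨ cm w y₁ = a)} (by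
        intro f hf
        simp only [List.mem_cons, List.not_mem_nil, or_false] at hf
        rcases hf with rfl | rfl | rfl | rfl
        · exact Function.injective_id
        · exact mul_left_injective _
        · exact mul_left_injective _
        · exact mul_left_injective _)
      (by
        rintro w ⟨⟨hwK, hwx⟩, hwy⟩
        have hqZ := h.Q_mem hwK
        have hqq := h.Q_sq hwK
        have e_x : Q t (w * x₀) = Q t w * a := by rw [h.Q_mul hwK hx₀K, ← ha, hwx, mul_one]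
        have e_y : Q t (w * y₁) = Q t w * b * cm w y₁ := by rw [h.Q_mul hwK hy₁K, ← hb]
        have e_yx : Q t (w * (y₁ * x₀)) = Q t w * (b * a) * cm w y₁ := by
          rw [h.Q_mul hwK (K.mul_mem hy₁K hx₀K), h.Q_mul hy₁K hx₀K, ← hb, ← ha, hy₁x, mul_one,
            h.cm_mul_right hwK hy₁K hx₀K, hwx, mul_one]
        have hbb' : ∀ x : G, b * (b * x) = x := fun x => by rw [← mul_assoc, hbb, one_mul]
        rcases hR a (h.hZK haZ) b (h.hZK hbZ) (Q t w) (h.hZK hqZ) haa hbb hqq (h.zcomm haZ hbZ)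
          (h.zcomm haZ hqZ) (h.zcomm hbZ hqZ) ha1 hb1 (Ne.symm hba) with k | k | k | k
        · exact ⟨id, by simp, hQZ w hwK k⟩
        · refine ⟨fun w => w * x₀, by simp, hQZ _ (K.mul_mem hwK hx₀K) ?_⟩
          rw [e_x, k, haa]
        · rcases hwy with f1 | f1
          · refine ⟨fun w => w * y₁, by simp, hQZ _ (K.mul_mem hwK hy₁K) ?_⟩
            rw [e_y, k, f1, mul_one, hbb]
          · refine ⟨fun w => w * (y₁ * x₀), by simp,
              hQZ _ (K.mul_mem hwK (K.mul_mem hy₁K hx₀K)) ?_⟩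
            rw [e_yx, k, f1]
            simp only [hbb', haa]
        · rcases hwy with f1 | f1
          · refine ⟨fun w => w * (y₁ * x₀), by simp,
              hQZ _ (K.mul_mem hwK (K.mul_mem hy₁K hx₀K)) ?_⟩
            rw [e_yx, k, f1, mul_one]
            simp only [mul_assoc, hbb', haa]
          · refine ⟨fun w => w * y₁, by simp, hQZ _ (K.mul_mem hwK hy₁K) ?_⟩
            rw [e_y, k, f1]
            simp only [mul_assoc, hbb', haa])
  have hL4' : ({w | w ∈ ({w | w ∈ K ∧ cm w x₀ = 1} : Set G) ∧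
      (cm w y₁ = 1 ∨ cm w y₁ = a)} : Set G).ncard ≤ 4 * (Z : Set G).ncard := by
    simpa using hL4
  have hfin : Nat.card K ≤ 32 * Nat.card Z := by
    calc Nat.card K = (K : Set G).ncard := hKc
      _ ≤ 2 * _ := hL1a
      _ ≤ 2 * (2 * _) := Nat.mul_le_mul_left 2 hL1b
      _ ≤ 2 * (2 * (2 * _)) := Nat.mul_le_mul_left 2 (Nat.mul_le_mul_left 2 hL3)
      _ ≤ 2 * (2 * (2 * (4 * (Z : Set G).ncard))) :=
          Nat.mul_le_mul_left 2 (Nat.mul_le_mul_left 2 (Nat.mul_le_mul_left 2 hL4'))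
      _ = 32 * Nat.card Z := by rw [hZc]; ring
  omega

end Cfg

end Cfsg.Agent.Lib.Helper90.R2T
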