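import Mathlib
import Cfsg.Agent.Lib.Helper90.R2TCore
import Cfsg.Agent.Lib.Helper53.PGroups

/-!
# Minimal configuration for an element of order three acting on a 2-group

`exists_min_cfg`: if `D` normalizes the 2-group `P`, `t ∈ Z(D)` with `t^3 = 1` does not centralize
`P`, then a `D`-invariant subgroup `K ≤ P` of minimal order not centralized by `t` satisfies
`Cfg K C_K(t) t` (class at most two, `C_K(t)` central containing all squares).
Also: free actions (`card_dvd_ncard_of_free`) and `rankTwo_of_card_le`.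
-/

set_option autoImplicit false

namespace Cfsg.Agent.Lib.Helper90.R2T

variable {G : Type*} [Group G]

/-- a free action on an invariant subset: the group order divides the size of the subset -/
theorem card_dvd_ncard_of_free {Γ α : Type*} [Group Γ] [MulAction Γ α] (S : Set α)
    (hinv : ∀ g : Γ, ∀ x ∈ S, g • x ∈ S) (hfree : ∀ g : Γ, ∀ x ∈ S, g • x = x → g = 1) :
    Nat.card Γ ∣ S.ncard := by
  let S' : SubMulAction Γ α := { carrier := S, smul_mem' := fun g x hx => hinv g x hx }
  have hstab : ∀ b : S', MulAction.stabilizer Γ b = ⊥ := by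
    intro b
    ext g
    rw [MulAction.mem_stabilizer_iff, Subgroup.mem_bot]
    constructor
    · intro hg
      have h1 := congrArg Subtype.val hg
      exact hfree g b.1 b.2 h1
    · rintro rfl
      exact one_smul _ _
  have e := MulAction.selfEquivOrbitsQuotientProd hstab
  have h1 : Nat.card S' = Nat.card (Quotient (MulAction.orbitRel Γ S')) * Nat.card Γ := by
    rw [Nat.card_congr e, Nat.card_prod]
  have h2 : Nat.card S' = S.ncard := Nat.card_coe_set_eq S
  rw [← h2, h1]
  exact dvd_mul_left _ _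

/-- if every elementary abelian 2-subgroup of `K` has order at most 4, `K` has no three
independent commuting involutions -/
theorem rankTwo_of_card_le [Finite G] (K : Subgroup G)
    (h0 : ∀ A : Subgroup G, A ≤ K → (∀ x ∈ A, ∀ y ∈ A, x * y = y * x) → (∀ x ∈ A, x * x = 1) →
      Nat.card A ≤ 4) : RankTwo K := by
  classical
  intro a ha b hb c hc haa hbb hcc hab hac hbc ha1 hb1 hab'
  by_contra hcon
  push Not at hcon
  obtain ⟨hc1, hca, hcb, hcab⟩ := hcon
  have hcommS : ∀ x ∈ ({a, b, c} : Set G), ∀ y ∈ ({a, b, c} : Set G), x * y = y * x := by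
    intro x hx y hy
    simp only [Set.mem_insert_iff, Set.mem_singleton_iff] at hx hy
    rcases hx with rfl | rfl | rfl <;> rcases hy with rfl | rfl | rfl <;>
      first | rfl | assumption | (symm; assumption)
  have hA_le : Subgroup.closure ({a, b, c} : Set G) ≤ K := (Subgroup.closure_le K).mpr (by
    intro x hx
    simp only [Set.mem_insert_iff, Set.mem_singleton_iff] at hx
    rcases hx with rfl | rfl | rfl <;> assumption)
  have hstep1 : ∀ y ∈ Subgroup.closure ({a, b, c} : Set G), ∀ x ∈ ({a, b, c} : Set G),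
      x * y = y * x := by
    intro y hy
    have : Subgroup.closure ({a, b, c} : Set G) ≤ Subgroup.centralizer ({a, b, c} : Set G) := by
      rw [Subgroup.closure_le]
      intro s hs
      exact Subgroup.mem_centralizer_iff.mpr (fun h hh => hcommS h hh s hs)
    exact Subgroup.mem_centralizer_iff.mp (this hy)
  have hA_comm : ∀ x ∈ Subgroup.closure ({a, b, c} : Set G),
      ∀ y ∈ Subgroup.closure ({a, b, c} : Set G), x * y = y * x := by
    intro x hx y hy
    have : Subgroup.closure ({a, b, c} : Set G) ≤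
        Subgroup.centralizer (Subgroup.closure ({a, b, c} : Set G) : Set G) := by
      rw [Subgroup.closure_le]
      intro s hs
      exact Subgroup.mem_centralizer_iff.mpr (fun h hh => (hstep1 h hh s hs).symm)
    exact (Subgroup.mem_centralizer_iff.mp (this hy) x hx)
  have hA_sq : ∀ x ∈ Subgroup.closure ({a, b, c} : Set G), x * x = 1 := by
    intro x hx
    induction hx using Subgroup.closure_induction with
    | mem s hs =>
      simp only [Set.mem_insert_iff, Set.mem_singleton_iff] at hs
      rcases hs with rfl | rfl | rfl <;> assumption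
    | one => simp
    | mul x y hx hy ihx ihy =>
      calc x * y * (x * y) = x * (y * x) * y := by group
        _ = x * (x * y) * y := by rw [hA_comm y hy x hx]
        _ = (x * x) * (y * y) := by group
        _ = 1 := by rw [ihx, ihy, one_mul]
    | inv x hx ih =>
      calc x⁻¹ * x⁻¹ = (x * x)⁻¹ := by group
        _ = 1 := by rw [ih, inv_one]
  have hcard := h0 _ hA_le hA_comm hA_sq
  have hab1 : a * b ≠ 1 := by
    intro h
    have h1 : a = b⁻¹ := mul_eq_one_iff_eq_inv.mp h
    have h2 : b⁻¹ = b := inv_eq_of_mul_eq_one_left hbb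
    exact hab' (h1.trans h2)
  have n1 : a * b ∉ ({c} : Finset G) := by
    rw [Finset.mem_singleton]; exact Ne.symm hcab
  have n2 : b ∉ ({a * b, c} : Finset G) := by
    rw [Finset.mem_insert, Finset.mem_singleton, not_or]
    refine ⟨fun h => ha1 ?_, Ne.symm hcb⟩
    have : 1 * b = a * b := by rw [one_mul]; exact h
    exact (mul_right_cancel this).symm
  have n3 : a ∉ ({b, a * b, c} : Finset G) := by
    rw [Finset.mem_insert, Finset.mem_insert, Finset.mem_singleton, not_or, not_or]
    refine ⟨hab', fun h => hb1 ?_, Ne.symm hca⟩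
    have : a * 1 = a * b := by rw [mul_one]; exact h
    exact (mul_left_cancel this).symm
  have n4 : (1 : G) ∉ ({a, b, a * b, c} : Finset G) := by
    rw [Finset.mem_insert, Finset.mem_insert, Finset.mem_insert, Finset.mem_singleton, not_or,
      not_or, not_or]
    exact ⟨Ne.symm ha1, Ne.symm hb1, Ne.symm hab1, Ne.symm hc1⟩
  have h5 : ({1, a, b, a * b, c} : Finset G).card = 5 := by
    rw [Finset.card_insert_of_notMem n4, Finset.card_insert_of_notMem n3,
      Finset.card_insert_of_notMem n2, Finset.card_insert_of_notMem n1, Finset.card_singleton]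
  have hsub : (({1, a, b, a * b, c} : Finset G) : Set G) ⊆
      (Subgroup.closure ({a, b, c} : Set G) : Set G) := by
    intro x hx
    simp only [Finset.coe_insert, Finset.coe_singleton, Set.mem_insert_iff,
      Set.mem_singleton_iff] at hx
    have hma : a ∈ Subgroup.closure ({a, b, c} : Set G) := Subgroup.subset_closure (by simp)
    have hmb : b ∈ Subgroup.closure ({a, b, c} : Set G) := Subgroup.subset_closure (by simp)
    have hmc : c ∈ Subgroup.closure ({a, b, c} : Set G) := Subgroup.subset_closure (by simp)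
    rcases hx with rfl | rfl | rfl | rfl | rfl
    · exact Subgroup.one_mem _
    · exact hma
    · exact hmb
    · exact Subgroup.mul_mem _ hma hmb
    · exact hmc
  have h6 := Set.ncard_le_ncard hsub (Set.toFinite _)
  rw [Set.ncard_coe_finset, h5] at h6
  have h7 : Nat.card (Subgroup.closure ({a, b, c} : Set G)) =
      (Subgroup.closure ({a, b, c} : Set G) : Set G).ncard := Nat.card_coe_set_eq _
  omega

/-- **Minimal configuration.** -/
theorem exists_min_cfg [Finite G] (P D : Subgroup G) (t : G) (hP : IsPGroup 2 P)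
    (hDP : D ≤ Subgroup.normalizer (P : Set G)) (htD : t ∈ D) (htc : ∀ g ∈ D, g * t = t * g)
    (ht3 : t * t * t = 1) (htP : ¬ P ≤ Subgroup.centralizer {t}) :
    ∃ K : Subgroup G, K ≤ P ∧ D ≤ Subgroup.normalizer (K : Set G) ∧
      ¬ K ≤ Subgroup.centralizer {t} ∧ Cfg K (K ⊓ Subgroup.centralizer {t}) t ∧
      (∀ L : Subgroup G, L ≤ K → D ≤ Subgroup.normalizer (L : Set G) → L ≠ K →
        L ≤ Subgroup.centralizer {t}) := by
  classical
  obtain ⟨K, ⟨hKP, hDK, hKt⟩, hmin⟩ := Set.exists_min_image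
    {K : Subgroup G | K ≤ P ∧ D ≤ Subgroup.normalizer (K : Set G) ∧
      ¬ K ≤ Subgroup.centralizer {t}}
    (fun K => Nat.card K) (Set.toFinite _) ⟨P, le_refl P, hDP, htP⟩
  have hminL : ∀ L : Subgroup G, L ≤ K → D ≤ Subgroup.normalizer (L : Set G) → L ≠ K →
      L ≤ Subgroup.centralizer {t} := by
    intro L hLK hDL hne
    by_contra hLt
    have h1 := hmin L ⟨hLK.trans hKP, hDL, hLt⟩
    exact hne (Subgroup.eq_of_le_of_card_ge hLK h1)
  have hDKc : ∀ g ∈ D, ∀ x ∈ K, cj g x ∈ K := fun g hg x hx =>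
    (Subgroup.mem_normalizer_iff.mp (hDK hg) x).mp hx
  have hcent : ∀ x : G, x ∈ Subgroup.centralizer {t} ↔ cj t x = x := by
    intro x
    rw [Subgroup.mem_centralizer_iff]
    simp only [Set.mem_singleton_iff, forall_eq]
    unfold cj
    rw [mul_inv_eq_iff_eq_mul]
  have hK2 : ∀ x ∈ K, ∃ n : ℕ, x ^ 2 ^ n = 1 := by
    intro x hx
    obtain ⟨n, hn⟩ := hP ⟨x, hKP hx⟩
    exact ⟨n, by simpa using congrArg Subtype.val hn⟩
  obtain ⟨Z, hZ⟩ : ∃ Z : Subgroup G, Z = K ⊓ Subgroup.centralizer {t} := ⟨_, rfl⟩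
  have hZmem : ∀ x, x ∈ Z ↔ x ∈ K ∧ cj t x = x := by
    intro x; rw [hZ, Subgroup.mem_inf, hcent]
  have hZK : Z ≤ K := by rw [hZ]; exact inf_le_left
  have hDZ : ∀ g ∈ D, ∀ z ∈ Z, cj g z ∈ Z := by
    intro g hg z hz
    obtain ⟨hzK, hzt⟩ := (hZmem z).mp hz
    refine (hZmem _).mpr ⟨hDKc g hg z hzK, ?_⟩
    rw [cj_comm_of_comm (htc g hg), hzt]
  have hsqZ : ∀ x ∈ K, x * x ∈ Z := by
    obtain ⟨Sq, hSq⟩ : ∃ Sq : Subgroup G, Sq = Subgroup.closure {s | ∃ x ∈ K, s = x * x} :=
      ⟨_, rfl⟩
    have hSqK : Sq ≤ K := by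
      rw [hSq, Subgroup.closure_le]
      rintro s ⟨x, hx, rfl⟩
      exact K.mul_mem hx hx
    have hDSq : D ≤ Subgroup.normalizer (Sq : Set G) := by
      apply Cfsg.Agent.Lib.Helper53.le_normalizer_of_conj_mem
      intro g hg w hw
      rw [hSq] at hw ⊢
      induction hw using Subgroup.closure_induction with
      | mem s hs =>
        obtain ⟨x, hx, rfl⟩ := hs
        apply Subgroup.subset_closure
        exact ⟨cj g x, hDKc g hg x hx, by unfold cj; group⟩
      | one =>
        have : g * 1 * g⁻¹ = 1 := by group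
        rw [this]; exact Subgroup.one_mem _
      | mul x y hx hy ihx ihy =>
        have : g * (x * y) * g⁻¹ = (g * x * g⁻¹) * (g * y * g⁻¹) := by group
        rw [this]; exact Subgroup.mul_mem _ ihx ihy
      | inv x hx ih =>
        have : g * x⁻¹ * g⁻¹ = (g * x * g⁻¹)⁻¹ := by group
        rw [this]; exact Subgroup.inv_mem _ ih
    have hSqne : Sq ≠ K := by
      intro hEq
      have hKne : K ≠ ⊥ := by
        rintro rfl
        exact hKt bot_le
      haveI : Nontrivial K := (Subgroup.nontrivial_iff_ne_bot K).mpr hKne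
      have hK2' : IsPGroup 2 K := hP.to_le hKP
      obtain ⟨m, hm⟩ := IsPGroup.iff_card.mp hK2'
      have hm1 : m ≠ 0 := by
        rintro rfl
        rw [pow_zero] at hm
        have := Finite.one_lt_card (α := K)
        omega
      obtain ⟨j, rfl⟩ := Nat.exists_eq_succ_of_ne_zero hm1
      obtain ⟨M, hM⟩ := Sylow.exists_subgroup_card_pow_prime 2
        (show 2 ^ j ∣ Nat.card K by rw [hm]; exact pow_dvd_pow 2 (Nat.le_succ j))
      have hidx : M.index = 2 := by
        have := Subgroup.card_mul_index M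
        rw [hM, hm, pow_succ] at this
        exact Nat.eq_of_mul_eq_mul_left (by positivity) this
      have hle : Sq ≤ M.map K.subtype := by
        rw [hSq, Subgroup.closure_le]
        rintro s ⟨x, hx, rfl⟩
        exact ⟨⟨x, hx⟩ * ⟨x, hx⟩, Subgroup.mul_self_mem_of_index_two hidx _, rfl⟩
      have hc1 : Nat.card (M.map K.subtype) = 2 ^ j := by
        rw [Subgroup.card_map_of_injective K.subtype_injective]
        exact hM
      have hc2 := Subgroup.card_le_of_le hle
      rw [hEq, hm, hc1] at hc2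
      have : 2 ^ j < 2 ^ (j + 1) := Nat.pow_lt_pow_right (by norm_num) (Nat.lt_succ_self j)
      omega
    have hSqt := hminL Sq hSqK hDSq hSqne
    intro x hx
    have hxx : x * x ∈ Sq := by rw [hSq]; exact Subgroup.subset_closure ⟨x, hx, rfl⟩
    exact (hZmem _).mpr ⟨hSqK hxx, (hcent _).mp (hSqt hxx)⟩
  have hcmZ : ∀ x ∈ K, ∀ y ∈ K, cm x y ∈ Z := by
    intro x hx y hy
    have e : cm x y = (x * y) * (x * y) * ((y⁻¹ * x⁻¹ * y) * (y⁻¹ * x⁻¹ * y)) * (y⁻¹ * y⁻¹) := by
      unfold cm; group
    rw [e]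
    exact Z.mul_mem (Z.mul_mem (hsqZ _ (K.mul_mem hx hy))
      (hsqZ _ (K.mul_mem (K.mul_mem (K.inv_mem hy) (K.inv_mem hx)) hy))) (hsqZ _ (K.inv_mem hy))
  have hcenZ : ∀ z ∈ Z, ∀ x ∈ K, z * x = x * z := by
    obtain ⟨N, hN⟩ : ∃ N : Subgroup G, N = K ⊓ Subgroup.centralizer (Z : Set G) := ⟨_, rfl⟩
    have hNK : N ≤ K := by rw [hN]; exact inf_le_left
    have hDN : D ≤ Subgroup.normalizer (N : Set G) := by
      apply Cfsg.Agent.Lib.Helper53.le_normalizer_of_conj_mem
      intro g hg w hw
      rw [hN, Subgroup.mem_inf] at hw ⊢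
      refine ⟨hDKc g hg w hw.1, ?_⟩
      rw [Subgroup.mem_centralizer_iff]
      intro z hz
      have hz' : cj g⁻¹ z ∈ Z := hDZ g⁻¹ (D.inv_mem hg) z hz
      have hw2 := (Subgroup.mem_centralizer_iff.mp hw.2) _ hz'
      have e1 : z * (g * w * g⁻¹) = g * (cj g⁻¹ z * w) * g⁻¹ := by unfold cj; group
      have e2 : g * w * g⁻¹ * z = g * (w * cj g⁻¹ z) * g⁻¹ := by unfold cj; group
      rw [e1, e2, hw2]
    by_cases hNeq : N = K
    · intro z hz x hx
      have hx' : x ∈ N := hNeq ▸ hx
      rw [hN, Subgroup.mem_inf] at hx'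
      exact (Subgroup.mem_centralizer_iff.mp hx'.2) z hz
    · exfalso
      have hNt := hminL N hNK hDN hNeq
      apply hKt
      intro x hx
      rw [hcent]
      have hu : x⁻¹ * cj t x ∈ N := by
        rw [hN, Subgroup.mem_inf]
        refine ⟨K.mul_mem (K.inv_mem hx) (hDKc t htD x hx), ?_⟩
        rw [Subgroup.mem_centralizer_iff]
        intro z hz
        have h1 : x * z * x⁻¹ ∈ Z := by
          have : x * z * x⁻¹ = cm x z * z := by unfold cm; group
          rw [this]; exact Z.mul_mem (hcmZ x hx z (hZK hz)) hz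
        have h2 := ((hZmem _).mp h1).2
        have h3 := ((hZmem _).mp hz).2
        rw [cj_mul, cj_mul, cj_inv, h3] at h2
        calc z * (x⁻¹ * cj t x) = x⁻¹ * (x * z * x⁻¹) * cj t x := by group
          _ = x⁻¹ * (cj t x * z * (cj t x)⁻¹) * cj t x := by rw [h2]
          _ = x⁻¹ * cj t x * z := by group
      have huZ : x⁻¹ * cj t x ∈ Z := (hZmem _).mpr ⟨hNK hu, (hcent _).mp (hNt hu)⟩
      exact cj_eq_self_of ht3 ((hZmem _).mp huZ).2 (hK2 _ (hZK huZ))
  refine ⟨K, hKP, hDK, hKt, ?_, hminL⟩
  rw [← hZ]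
  exact { hZK := hZK, hfix := hZmem, ht3 := ht3, hnorm := fun x hx => hDKc t htD x hx,
          hsq := hsqZ, hcen := hcenZ, h2 := hK2 }

end Cfsg.Agent.Lib.Helper90.R2T
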