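import Mathlib
import Cfsg.Agent.Lib.Helper90.R2TMin
import Cfsg.Agent.Lib.Helper53.Basic

/-!
# A group of 2-rank two with `C(O₂) ≤ O₂`, an element of order six and an `A₄`-configuration

`no_rank_two_config`: such a group does not exist.
-/

set_option autoImplicit false

namespace Cfsg.Agent.Lib.Helper90.R2T

variable {G : Type*} [Group G]

/-- a nontrivial 3-element has a power of order three -/
theorem exists_order_three_pow {x : G} (hx : x ≠ 1) (h3 : ∃ n : ℕ, x ^ 3 ^ n = 1) :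
    ∃ k : ℕ, x ^ k ≠ 1 ∧ x ^ k * x ^ k * x ^ k = 1 := by
  obtain ⟨n, hn⟩ := h3
  have d2 : orderOf x ∣ 3 ^ n := orderOf_dvd_of_pow_eq_one hn
  obtain ⟨m, -, hm⟩ := (Nat.dvd_prime_pow Nat.prime_three).mp d2
  have hm1 : m ≠ 0 := by
    rintro rfl
    rw [pow_zero] at hm
    exact hx (orderOf_eq_one_iff.mp hm)
  obtain ⟨j, rfl⟩ := Nat.exists_eq_succ_of_ne_zero hm1
  refine ⟨3 ^ j, ?_, ?_⟩
  · intro h
    have := orderOf_dvd_of_pow_eq_one h
    rw [hm] at this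
    have h3 := Nat.le_of_dvd (by positivity) this
    have : 3 ^ j < 3 ^ (j + 1) := Nat.pow_lt_pow_right (by norm_num) (Nat.lt_succ_self j)
    omega
  · rw [← pow_add, ← pow_add]
    have : 3 ^ j + 3 ^ j + 3 ^ j = 3 ^ (j + 1) := by ring
    rw [this, ← hm]
    exact pow_orderOf_eq_one x

/-- conjugation by `u` acting freely (all nontrivial powers) on a `u`-invariant set `S`:
`orderOf u` divides `|S|` -/
theorem orderOf_dvd_ncard_of_conj_free [Finite G] (u : G) (S : Set G)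
    (hinv : ∀ x ∈ S, cj u x ∈ S)
    (hfree : ∀ c ∈ Subgroup.zpowers u, c ≠ 1 → ∀ x ∈ S, cj c x ≠ x) : orderOf u ∣ S.ncard := by
  have hpow : ∀ (k : ℕ), ∀ x ∈ S, cj (u ^ k) x ∈ S := by
    intro k
    induction k with
    | zero =>
      intro x hx
      have : cj (u ^ 0) x = x := by unfold cj; group
      rw [this]; exact hx
    | succ k ih =>
      intro x hx
      have : cj (u ^ (k + 1)) x = cj u (cj (u ^ k) x) := by
        rw [pow_succ']; unfold cj; group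
      rw [this]; exact hinv _ (ih x hx)
  have hmem : ∀ γ : Subgroup.zpowers (ConjAct.toConjAct u),
      ConjAct.ofConjAct (γ : ConjAct G) ∈ Subgroup.zpowers u := by
    rintro ⟨c, hc⟩
    obtain ⟨i, hi⟩ := Subgroup.mem_zpowers_iff.mp hc
    refine Subgroup.mem_zpowers_iff.mpr ⟨i, ?_⟩
    have := congrArg ConjAct.ofConjAct hi
    rw [map_zpow, ConjAct.ofConjAct_toConjAct] at this
    exact this
  have hsmul : ∀ (γ : Subgroup.zpowers (ConjAct.toConjAct u)) (x : G),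
      γ • x = cj (ConjAct.ofConjAct (γ : ConjAct G)) x := by
    intro γ x
    rw [Subgroup.smul_def, ConjAct.smul_def]
    rfl
  have hdvd := card_dvd_ncard_of_free (Γ := Subgroup.zpowers (ConjAct.toConjAct u)) S
    (by
      intro γ x hx
      rw [hsmul]
      have h1 := hmem γ
      have hfin : IsOfFinOrder u := isOfFinOrder_of_finite u
      obtain ⟨k, hk⟩ := (Submonoid.mem_powers_iff _ _).mp (hfin.mem_powers_iff_mem_zpowers.mpr h1)
      rw [← hk]
      exact hpow k x hx)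
    (by
      intro γ x hx hγ
      rw [hsmul] at hγ
      by_contra hne
      have h1 : ConjAct.ofConjAct (γ : ConjAct G) ≠ 1 := by
        intro h
        apply hne
        apply Subtype.ext
        have := congrArg ConjAct.toConjAct h
        rw [ConjAct.toConjAct_ofConjAct] at this
        rw [this]; rfl
      exact hfree _ (hmem γ) h1 x hx hγ)
  have hcard : Nat.card (Subgroup.zpowers (ConjAct.toConjAct u)) = orderOf u := by
    rw [Nat.card_zpowers]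
    exact MulEquiv.orderOf_eq ConjAct.toConjAct u
  rw [hcard] at hdvd
  exact hdvd

/-- **No such configuration**: 2-rank at most two, `C(O) ≤ O` for a normal 2-subgroup `O`, an
element of order six, and a 3-element `d` acting fixed-point-freely on a nontrivial elementary
abelian 2-subgroup `W`. -/
theorem no_rank_two_config [Finite G]
    (h0 : ∀ A : Subgroup G, (∀ x ∈ A, ∀ y ∈ A, x * y = y * x) → (∀ x ∈ A, x * x = 1) →
      Nat.card A ≤ 4)
    (O : Subgroup G) [hOn' : O.Normal] (hO2 : IsPGroup 2 O)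
    (hchar : Subgroup.centralizer (O : Set G) ≤ O)
    (g : G) (hg : orderOf g = 6) (d : G) (hd : IsPGroup 3 (Subgroup.zpowers d))
    (W : Subgroup G) (hWc : ∀ x ∈ W, ∀ y ∈ W, x * y = y * x) (hW2 : ∀ x ∈ W, x * x = 1)
    (hW1 : W ≠ ⊥) (hdW : d ∈ Subgroup.normalizer (W : Set G))
    (hfpf : W ⊓ Subgroup.centralizer {d} = ⊥) : False := by
  classical
  have hRG : RankTwo (⊤ : Subgroup G) := rankTwo_of_card_le ⊤ (fun A _ hc hs => h0 A hc hs)
  have RG : ∀ a b c : G, a * a = 1 → b * b = 1 → c * c = 1 → a * b = b * a → a * c = c * a →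
      b * c = c * b → a ≠ 1 → b ≠ 1 → a ≠ b → c = 1 ∨ c = a ∨ c = b ∨ c = a * b :=
    fun a b c => hRG a (Subgroup.mem_top a) b (Subgroup.mem_top b) c (Subgroup.mem_top c)
  have hdWc : ∀ x ∈ W, cj d x ∈ W := fun x hx => (Subgroup.mem_normalizer_iff.mp hdW x).mp hx
  have hdfix : ∀ x ∈ W, cj d x = x → x = 1 := by
    intro x hx hfx
    have : x ∈ W ⊓ Subgroup.centralizer {d} := by
      rw [Subgroup.mem_inf, Subgroup.mem_centralizer_iff]
      refine ⟨hx, ?_⟩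
      simp only [Set.mem_singleton_iff, forall_eq]
      unfold cj at hfx
      exact mul_inv_eq_iff_eq_mul.mp hfx
    rw [hfpf, Subgroup.mem_bot] at this
    exact this
  obtain ⟨⟨a₀, ha₀W⟩, ha₀⟩ := (Subgroup.ne_bot_iff_exists_ne_one).mp hW1
  have ha₀1 : a₀ ≠ 1 := fun h => ha₀ (Subtype.ext h)
  obtain ⟨b₀, hb₀⟩ : ∃ b₀, b₀ = cj d a₀ := ⟨_, rfl⟩
  have hb₀W : b₀ ∈ W := by rw [hb₀]; exact hdWc a₀ ha₀W
  have hb₀1 : b₀ ≠ 1 := by
    intro h
    rw [hb₀] at h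
    exact ha₀1 (cj_inj d (by rw [h, cj_one]))
  have hab₀ : a₀ ≠ b₀ := by
    intro h
    exact ha₀1 (hdfix a₀ ha₀W (by rw [← hb₀, ← h]))
  have hRGW : ∀ y : G, y * y = 1 → a₀ * y = y * a₀ → b₀ * y = y * b₀ →
      y = 1 ∨ y = a₀ ∨ y = b₀ ∨ y = a₀ * b₀ := fun y hyy h1 h2 =>
    RG a₀ b₀ y (hW2 a₀ ha₀W) (hW2 b₀ hb₀W) hyy (hWc a₀ ha₀W b₀ hb₀W) h1 h2 ha₀1 hb₀1 hab₀
  have hRGW' : ∀ y : G, y * y = 1 → a₀ * y = y * a₀ → b₀ * y = y * b₀ → y ∈ W := by
    intro y hyy h1 h2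
    rcases hRGW y hyy h1 h2 with h | h | h | h <;> rw [h]
    · exact W.one_mem
    · exact ha₀W
    · exact hb₀W
    · exact W.mul_mem ha₀W hb₀W
  have hW4 : ∀ w ∈ W, w = 1 ∨ w = a₀ ∨ w = b₀ ∨ w = a₀ * b₀ := fun w hw =>
    hRGW w (hW2 w hw) (hWc a₀ ha₀W w hw) (hWc b₀ hb₀W w hw)
  have hcyc2 : cj d b₀ = a₀ * b₀ := by
    rcases hW4 _ (hdWc b₀ hb₀W) with h | h | h | h
    · exact absurd (cj_inj d (by rw [h, cj_one])) hb₀1
    · exfalso
      have hfix : cj d (a₀ * b₀) = a₀ * b₀ := by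
        rw [cj_mul, ← hb₀, h, hWc b₀ hb₀W a₀ ha₀W]
      have h0' := hdfix _ (W.mul_mem ha₀W hb₀W) hfix
      have h1 : a₀ = b₀⁻¹ := mul_eq_one_iff_eq_inv.mp h0'
      have h2 : b₀⁻¹ = b₀ := inv_eq_of_mul_eq_one_left (hW2 b₀ hb₀W)
      exact hab₀ (h1.trans h2)
    · exact absurd (hdfix b₀ hb₀W h) hb₀1
    · exact h
  have hcyc3 : cj d (a₀ * b₀) = a₀ := by
    rw [cj_mul, ← hb₀, hcyc2, hWc b₀ hb₀W (a₀ * b₀) (W.mul_mem ha₀W hb₀W), mul_assoc,
      hW2 b₀ hb₀W, mul_one]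
  have hirr : ∀ A : Subgroup G, (∀ x ∈ A, x ∈ W → cj d x ∈ A) → (∃ x ∈ A, x ∈ W ∧ x ≠ 1) →
      W ≤ A := by
    rintro A hAd ⟨x, hxA, hxW, hx1⟩
    have key : a₀ ∈ A ∧ b₀ ∈ A := by
      rcases hW4 x hxW with h | h | h | h
      · exact absurd h hx1
      · rw [h] at hxA
        have h1 := hAd _ hxA ha₀W
        rw [← hb₀] at h1
        exact ⟨hxA, h1⟩
      · rw [h] at hxA
        have h1 := hAd _ hxA hb₀W
        rw [hcyc2] at h1
        have h2 := hAd _ h1 (W.mul_mem ha₀W hb₀W)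
        rw [hcyc3] at h2
        exact ⟨h2, hxA⟩
      · rw [h] at hxA
        have h2 := hAd _ hxA (W.mul_mem ha₀W hb₀W)
        rw [hcyc3] at h2
        have h1 := hAd _ h2 ha₀W
        rw [← hb₀] at h1
        exact ⟨h2, h1⟩
    intro w hw
    rcases hW4 w hw with h | h | h | h <;> rw [h]
    · exact A.one_mem
    · exact key.1
    · exact key.2
    · exact A.mul_mem key.1 key.2
  -- `W ≤ Z(O)`
  have hOn : ∀ (x : G), ∀ y ∈ O, cj x y ∈ O := fun x y hy => hOn'.conj_mem y hy x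
  have hW2g : IsPGroup 2 W := by
    rintro ⟨x, hx⟩
    refine ⟨1, ?_⟩
    apply Subtype.ext
    rw [pow_one, Subgroup.coe_pow, Subgroup.coe_one, pow_two]
    exact hW2 x hx
  have hT2 : IsPGroup 2 (O ⊔ W : Subgroup G) := hO2.to_sup_of_normal_left hW2g
  have hTne : (O ⊔ W : Subgroup G) ≠ ⊥ := fun h => hW1 (le_bot_iff.mp (h ▸ le_sup_right))
  obtain ⟨z, hzT, hz1, hzc⟩ := Cfsg.Agent.Lib.Helper53.exists_mem_center_of_normal_subgroup hT2
    (le_refl _) Subgroup.le_normalizer hTne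
  have hz2 : ∃ n : ℕ, z ^ 2 ^ n = 1 := by
    obtain ⟨n, hn⟩ := hT2 ⟨z, hzT⟩
    exact ⟨n, by simpa using congrArg Subtype.val hn⟩
  obtain ⟨k, hk1, hk2⟩ := exists_invol_pow hz1 hz2
  have hz'c : ∀ y ∈ (O ⊔ W : Subgroup G), y * z ^ k = z ^ k * y := fun y hy =>
    (Commute.pow_right (hzc y hy) k).eq
  have hz'W : z ^ k ∈ W :=
    hRGW' _ hk2 (hz'c a₀ (le_sup_right (a := O) ha₀W)) (hz'c b₀ (le_sup_right (a := O) hb₀W))
  have hWCO : W ≤ Subgroup.centralizer (O : Set G) := by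
    apply hirr
    · intro x hx _
      rw [Subgroup.mem_centralizer_iff] at hx ⊢
      intro y hy
      have hy' : cj d⁻¹ y ∈ O := hOn d⁻¹ y hy
      have h1 := hx _ hy'
      have e1 : y * cj d x = d * (cj d⁻¹ y * x) * d⁻¹ := by unfold cj; group
      have e2 : cj d x * y = d * (x * cj d⁻¹ y) * d⁻¹ := by unfold cj; group
      rw [e1, e2, h1]
    · refine ⟨z ^ k, ?_, hz'W, hk1⟩
      rw [Subgroup.mem_centralizer_iff]
      intro y hy
      exact hz'c y (le_sup_left (b := W) hy)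
  have hWO : W ≤ O := hWCO.trans hchar
  have hWcO : ∀ w ∈ W, ∀ y ∈ O, y * w = w * y := fun w hw y hy =>
    Subgroup.mem_centralizer_iff.mp (hWCO hw) y hy
  -- `W` is normal
  have hWn : ∀ (x : G), ∀ w ∈ W, cj x w ∈ W := by
    intro x w hw
    have hcc : ∀ y ∈ O, y * cj x w = cj x w * y := by
      intro y hy
      have hy' : cj x⁻¹ y ∈ O := hOn x⁻¹ y hy
      have h1 := hWcO w hw _ hy'
      have e1 : y * cj x w = x * (cj x⁻¹ y * w) * x⁻¹ := by unfold cj; group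
      have e2 : cj x w * y = x * (w * cj x⁻¹ y) * x⁻¹ := by unfold cj; group
      rw [e1, e2, h1]
    have hsq : cj x w * cj x w = 1 := by rw [← cj_mul, hW2 w hw, cj_one]
    exact hRGW' _ hsq (hcc a₀ (hWO ha₀W)) (hcc b₀ (hWO hb₀W))
  have hinv : ∀ y : G, y * y = 1 → (∀ w ∈ W, w * y = y * w) → y ∈ W := fun y hyy hyc =>
    hRGW' y hyy (hyc a₀ ha₀W) (hyc b₀ hb₀W)
  -- the element of order six
  obtain ⟨u, hu⟩ : ∃ u, u = g ^ 2 := ⟨_, rfl⟩
  obtain ⟨t₀, ht₀⟩ : ∃ t₀, t₀ = g ^ 3 := ⟨_, rfl⟩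
  have hg6 : g ^ 6 = 1 := by rw [← hg]; exact pow_orderOf_eq_one g
  have hu3 : u * u * u = 1 := by rw [hu, ← pow_add, ← pow_add]; exact hg6
  have ht2 : t₀ * t₀ = 1 := by rw [ht₀, ← pow_add]; exact hg6
  have hu1 : u ≠ 1 := by
    rw [hu]
    intro h
    have := orderOf_dvd_of_pow_eq_one h
    rw [hg] at this
    omega
  have ht1 : t₀ ≠ 1 := by
    rw [ht₀]
    intro h
    have := orderOf_dvd_of_pow_eq_one h
    rw [hg] at this
    omega
  have hut : u * t₀ = t₀ * u := by rw [hu, ht₀, ← pow_add, ← pow_add]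
  obtain ⟨w₀, hw₀W, hw₀1, hw₀u⟩ : ∃ w₀ ∈ W, w₀ ≠ 1 ∧ cj u w₀ = w₀ := by
    by_cases hc : ∀ w ∈ W, w * t₀ = t₀ * w
    · have ht₀W : t₀ ∈ W := hinv t₀ ht2 hc
      refine ⟨t₀, ht₀W, ht1, ?_⟩
      unfold cj; rw [hut]; group
    · push Not at hc
      obtain ⟨w, hwW, hwt⟩ := hc
      have hw'W : cj t₀ w ∈ W := hWn t₀ w hwW
      have hne : cj t₀ w ≠ w := by
        intro h
        apply hwt
        unfold cj at h
        exact (mul_inv_eq_iff_eq_mul.mp h).symm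
      have hw1 : w ≠ 1 := by
        rintro rfl
        exact hwt (by rw [one_mul, mul_one])
      have hw'1 : cj t₀ w ≠ 1 := fun h => hw1 (cj_inj t₀ (by rw [h, cj_one]))
      have hcc : cj t₀ (cj t₀ w) = w := by
        have : cj t₀ (cj t₀ w) = (t₀ * t₀) * w * (t₀ * t₀)⁻¹ := by unfold cj; group
        rw [this, ht2]; group
      have hfix : cj t₀ (w * cj t₀ w) = w * cj t₀ w := by
        rw [cj_mul, hcc, hWc _ hw'W w hwW]
      have hW4' : ∀ x ∈ W, x = 1 ∨ x = w ∨ x = cj t₀ w ∨ x = w * cj t₀ w := fun x hx =>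
        RG w (cj t₀ w) x (hW2 w hwW) (hW2 _ hw'W) (hW2 x hx) (hWc w hwW _ hw'W) (hWc w hwW x hx)
          (hWc _ hw'W x hx) hw1 hw'1 (Ne.symm hne)
      have hprod1 : w * cj t₀ w ≠ 1 := by
        intro h
        have h1 : w = (cj t₀ w)⁻¹ := mul_eq_one_iff_eq_inv.mp h
        have h2 : (cj t₀ w)⁻¹ = cj t₀ w := inv_eq_of_mul_eq_one_left (hW2 _ hw'W)
        exact hne (h1.trans h2).symm
      refine ⟨w * cj t₀ w, W.mul_mem hwW hw'W, hprod1, ?_⟩
      have hcW : cj u (w * cj t₀ w) ∈ W := hWn u _ (W.mul_mem hwW hw'W)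
      have hcfix : cj t₀ (cj u (w * cj t₀ w)) = cj u (w * cj t₀ w) := by
        rw [cj_comm_of_comm hut, hfix]
      rcases hW4' _ hcW with h | h | h | h
      · exact absurd (cj_inj u (by rw [h, cj_one])) hprod1
      · rw [h] at hcfix
        exact absurd hcfix hne
      · rw [h, hcc] at hcfix
        exact absurd hcfix.symm hne
      · exact h
  have huW : ∀ x ∈ W, cj u x = x := by
    intro x hx
    by_cases hx1 : x = 1
    · rw [hx1, cj_one]
    by_cases hxw : x = w₀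
    · rw [hxw, hw₀u]
    have hW4' : ∀ y ∈ W, y = 1 ∨ y = w₀ ∨ y = x ∨ y = w₀ * x := fun y hy =>
      RG w₀ x y (hW2 w₀ hw₀W) (hW2 x hx) (hW2 y hy) (hWc w₀ hw₀W x hx) (hWc w₀ hw₀W y hy)
        (hWc x hx y hy) hw₀1 hx1 (Ne.symm hxw)
    have hu3' : cj u (cj u (cj u x)) = x := by
      have : cj u (cj u (cj u x)) = (u * u * u) * x * (u * u * u)⁻¹ := by unfold cj; group
      rw [this, hu3]; group
    rcases hW4' _ (hWn u x hx) with h | h | h | h
    · exact absurd (cj_inj u (by rw [h, cj_one])) hx1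
    · exact absurd (cj_inj u (by rw [h, hw₀u])) hxw
    · exact h
    · exfalso
      have h2 : cj u (cj u x) = x := by
        rw [h, cj_mul, hw₀u, h, ← mul_assoc, hW2 w₀ hw₀W, one_mul]
      rw [h2, h] at hu3'
      apply hw₀1
      have : w₀ * x = 1 * x := by rw [one_mul]; exact hu3'
      exact mul_right_cancel this
  -- a 3-element `u₁` of order three centralizing `W` and commuting with `d`
  haveI : Fact (Nat.Prime 3) := ⟨Nat.prime_three⟩
  obtain ⟨T₃, hdT⟩ := hd.exists_le_sylow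
  have hdT' : d ∈ (T₃ : Subgroup G) := hdT (Subgroup.mem_zpowers d)
  have hu3g : IsPGroup 3 (Subgroup.zpowers u) := by
    apply IsPGroup.of_card (n := 1)
    rw [Nat.card_zpowers, pow_one]
    exact orderOf_eq_prime (by rw [pow_succ, pow_two]; exact hu3) hu1
  obtain ⟨n, hn⟩ := Cfsg.Agent.Lib.Helper53.exists_conj_le_sylow T₃ hu3g
  have hu₂T : cj n u ∈ (T₃ : Subgroup G) := hn u (Subgroup.mem_zpowers u)
  have hCWn : ∀ (x : G), ∀ c ∈ Subgroup.centralizer (W : Set G),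
      cj x c ∈ Subgroup.centralizer (W : Set G) := by
    intro x c hc
    rw [Subgroup.mem_centralizer_iff] at hc ⊢
    intro w hw
    have hw' : cj x⁻¹ w ∈ W := hWn x⁻¹ w hw
    have h1 := hc _ hw'
    have e1 : w * cj x c = x * (cj x⁻¹ w * c) * x⁻¹ := by unfold cj; group
    have e2 : cj x c * w = x * (c * cj x⁻¹ w) * x⁻¹ := by unfold cj; group
    rw [e1, e2, h1]
  have huCW : u ∈ Subgroup.centralizer (W : Set G) := by
    rw [Subgroup.mem_centralizer_iff]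
    intro w hw
    have := huW w hw
    unfold cj at this
    exact (mul_inv_eq_iff_eq_mul.mp this).symm
  obtain ⟨M, hM⟩ : ∃ M : Subgroup G,
      M = (T₃ : Subgroup G) ⊓ Subgroup.centralizer (W : Set G) := ⟨_, rfl⟩
  have hMT : M ≤ (T₃ : Subgroup G) := by rw [hM]; exact inf_le_left
  have hTM : (T₃ : Subgroup G) ≤ Subgroup.normalizer (M : Set G) := by
    apply Cfsg.Agent.Lib.Helper53.le_normalizer_of_conj_mem
    intro x hx w hw
    rw [hM, Subgroup.mem_inf] at hw ⊢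
    exact ⟨(T₃ : Subgroup G).mul_mem ((T₃ : Subgroup G).mul_mem hx hw.1)
      ((T₃ : Subgroup G).inv_mem hx), hCWn x w hw.2⟩
  have hMne : M ≠ ⊥ := by
    intro h
    have : cj n u ∈ M := by
      rw [hM, Subgroup.mem_inf]
      exact ⟨hu₂T, hCWn n u huCW⟩
    rw [h, Subgroup.mem_bot] at this
    exact hu1 (cj_inj n (by rw [this, cj_one]))
  obtain ⟨v, hvM, hv1, hvc⟩ := Cfsg.Agent.Lib.Helper53.exists_mem_center_of_normal_subgroup
    T₃.isPGroup' hMT hTM hMne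
  have hv3 : ∃ m : ℕ, v ^ 3 ^ m = 1 := by
    obtain ⟨m, hm⟩ := T₃.isPGroup' ⟨v, hMT hvM⟩
    exact ⟨m, by simpa using congrArg Subtype.val hm⟩
  obtain ⟨k₃, hk₃1, hk₃3⟩ := exists_order_three_pow hv1 hv3
  obtain ⟨u₁, hu₁⟩ : ∃ u₁, u₁ = v ^ k₃ := ⟨_, rfl⟩
  rw [← hu₁] at hk₃1 hk₃3
  have hu₁M : u₁ ∈ M := by rw [hu₁]; exact M.pow_mem hvM k₃
  have hu₁d : d * u₁ = u₁ * d := by rw [hu₁]; exact (Commute.pow_right (hvc d hdT') k₃).eq
  have hu₁W : ∀ w ∈ W, cj u₁ w = w := by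
    intro w hw
    have h1 : u₁ ∈ Subgroup.centralizer (W : Set G) := by
      have := hu₁M
      rw [hM, Subgroup.mem_inf] at this
      exact this.2
    have h2 := Subgroup.mem_centralizer_iff.mp h1 w hw
    unfold cj; rw [← h2]; group
  have hu₁pow : u₁ ^ 3 = 1 := by rw [pow_succ, pow_two]; exact hk₃3
  have hu₁O : ¬ O ≤ Subgroup.centralizer {u₁} := by
    intro h
    have h1 : u₁ ∈ Subgroup.centralizer (O : Set G) := by
      rw [Subgroup.mem_centralizer_iff]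
      intro y hy
      exact (Subgroup.mem_centralizer_iff.mp (h hy) u₁ (Set.mem_singleton _)).symm
    have h2 : u₁ ∈ O := hchar h1
    obtain ⟨m, hm⟩ := hO2 ⟨u₁, h2⟩
    have hm' : u₁ ^ 2 ^ m = 1 := by simpa using congrArg Subtype.val hm
    have d1 : orderOf u₁ ∣ 3 := orderOf_dvd_of_pow_eq_one hu₁pow
    have d2 : orderOf u₁ ∣ 2 ^ m := orderOf_dvd_of_pow_eq_one hm'
    have d3 : orderOf u₁ ∣ Nat.gcd 3 (2 ^ m) := Nat.dvd_gcd d1 d2
    have hgc : Nat.gcd 3 (2 ^ m) = 1 := Nat.Coprime.pow_right m (by norm_num)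
    rw [hgc] at d3
    exact hk₃1 (orderOf_eq_one_iff.mp (Nat.dvd_one.mp d3))
  -- the minimal configuration
  obtain ⟨D, hD⟩ : ∃ D : Subgroup G, D = Subgroup.closure {u₁, d} := ⟨_, rfl⟩
  have hu₁D : u₁ ∈ D := by rw [hD]; exact Subgroup.subset_closure (by simp)
  have hdD : d ∈ D := by rw [hD]; exact Subgroup.subset_closure (by simp)
  have hDc : ∀ x ∈ D, x * u₁ = u₁ * x := by
    intro x hx
    have : D ≤ Subgroup.centralizer {u₁} := by
      rw [hD, Subgroup.closure_le]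
      intro s hs
      simp only [Set.mem_insert_iff, Set.mem_singleton_iff] at hs
      rw [SetLike.mem_coe, Subgroup.mem_centralizer_iff]
      intro h hh
      rw [Set.mem_singleton_iff] at hh
      rw [hh]
      rcases hs with hs | hs
      · rw [hs]
      · rw [hs]; exact hu₁d.symm
    exact (Subgroup.mem_centralizer_iff.mp (this hx) u₁ rfl).symm
  have hDO : D ≤ Subgroup.normalizer (O : Set G) := by
    intro x _
    rw [Subgroup.mem_normalizer_iff]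
    intro y
    constructor
    · intro hy; exact hOn x y hy
    · intro hy
      have := hOn x⁻¹ _ hy
      have e : cj x⁻¹ (x * y * x⁻¹) = y := by unfold cj; group
      rwa [e] at this
  obtain ⟨K, hKO, hDK, hKt, hcfg, -⟩ := exists_min_cfg O D u₁ hO2 hDO hu₁D hDc hk₃3 hu₁O
  obtain ⟨Z, hZ⟩ : ∃ Z : Subgroup G, Z = K ⊓ Subgroup.centralizer {u₁} := ⟨_, rfl⟩
  rw [← hZ] at hcfg
  have hRK : RankTwo K := rankTwo_of_card_le K (fun A _ hc hs => h0 A hc hs)
  have hbound := hcfg.core_bound hRK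
  have hdK : ∀ x ∈ K, cj d x ∈ K := fun x hx =>
    (Subgroup.mem_normalizer_iff.mp (hDK hdD) x).mp hx
  have hinvK : ∀ y ∈ K, y * y = 1 → y ∈ W ∧ y ∈ Z := by
    intro y hy hyy
    have hyW : y ∈ W := hinv y hyy (fun w hw => (hWcO w hw y (hKO hy)).symm)
    exact ⟨hyW, (hcfg.hfix y).mpr ⟨hy, hu₁W y hyW⟩⟩
  have hKne : K ≠ ⊥ := by
    rintro rfl
    exact hKt bot_le
  obtain ⟨z₁, hz₁Z, hz₁ne, hz₁sq⟩ : ∃ z ∈ Z, z ≠ 1 ∧ z * z = 1 := by
    obtain ⟨⟨x, hxK⟩, hx1⟩ := (Subgroup.ne_bot_iff_exists_ne_one).mp hKne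
    have hx1' : x ≠ 1 := fun h => hx1 (Subtype.ext h)
    obtain ⟨k', hk'1, hk'2⟩ := exists_invol_pow hx1' (hcfg.h2 x hxK)
    exact ⟨x ^ k', (hinvK _ (K.pow_mem hxK k') hk'2).2, hk'1, hk'2⟩
  have hQval : ∀ x ∈ K, x ∉ Z → Q u₁ x = a₀ ∨ Q u₁ x = b₀ ∨ Q u₁ x = a₀ * b₀ := by
    intro x hx hxZ
    have hq1 := hcfg.Q_ne_one hRK hz₁Z hz₁ne hz₁sq hx hxZ
    have hqW := (hinvK _ (hcfg.hZK (hcfg.Q_mem hx)) (hcfg.Q_sq hx)).1
    rcases hW4 _ hqW with h | h | h | h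
    · exact absurd h hq1
    · exact Or.inl h
    · exact Or.inr (Or.inl h)
    · exact Or.inr (Or.inr h)
  have hSle : ∀ w : G, ({x | x ∈ K ∧ x ∉ Z ∧ Q u₁ x = w} : Set G).ncard ≤
      ({x | x ∈ K ∧ x ∉ Z ∧ Q u₁ x = cj d w} : Set G).ncard := by
    intro w
    apply Set.ncard_le_ncard_of_injOn (cj d) _ (fun a _ b _ hab => cj_inj d hab) (Set.toFinite _)
    rintro x ⟨hxK, hxZ, hxQ⟩
    refine ⟨hdK x hxK, ?_, ?_⟩
    · intro hcZ
      apply hxZ
      have h1 := hcfg.fixZ hcZ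
      rw [cj_comm_of_comm hu₁d] at h1
      exact (hcfg.hfix x).mpr ⟨hxK, cj_inj d h1⟩
    · rw [Q_cj hu₁d, hxQ]
  obtain ⟨N, hN⟩ : ∃ N : ℕ, N = ({x | x ∈ K ∧ x ∉ Z ∧ Q u₁ x = a₀} : Set G).ncard := ⟨_, rfl⟩
  have hS1 := hSle a₀
  rw [← hb₀] at hS1
  have hS2 := hSle b₀
  rw [hcyc2] at hS2
  have hS3 := hSle (a₀ * b₀)
  rw [hcyc3] at hS3
  have hNb : ({x | x ∈ K ∧ x ∉ Z ∧ Q u₁ x = b₀} : Set G).ncard = N := by omega
  have hNab : ({x | x ∈ K ∧ x ∉ Z ∧ Q u₁ x = a₀ * b₀} : Set G).ncard = N := by omega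
  have hne_a_ab : a₀ ≠ a₀ * b₀ := by
    intro h
    have : a₀ * 1 = a₀ * b₀ := by rw [mul_one]; exact h
    exact hb₀1 (mul_left_cancel this).symm
  have hne_b_ab : b₀ ≠ a₀ * b₀ := by
    intro h
    have : 1 * b₀ = a₀ * b₀ := by rw [one_mul]; exact h
    exact ha₀1 (mul_right_cancel this).symm
  have hpart : (K : Set G).ncard = (Z : Set G).ncard + (N + (N + N)) := by
    have hunion : (K : Set G) = (Z : Set G) ∪ ({x | x ∈ K ∧ x ∉ Z ∧ Q u₁ x = a₀} ∪
        ({x | x ∈ K ∧ x ∉ Z ∧ Q u₁ x = b₀} ∪ {x | x ∈ K ∧ x ∉ Z ∧ Q u₁ x = a₀ * b₀})) := by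
      ext x
      simp only [Set.mem_union, Set.mem_ofPred_eq, SetLike.mem_coe]
      constructor
      · intro hx
        by_cases hxZ : x ∈ Z
        · exact Or.inl hxZ
        · rcases hQval x hx hxZ with h | h | h
          · exact Or.inr (Or.inl ⟨hx, hxZ, h⟩)
          · exact Or.inr (Or.inr (Or.inl ⟨hx, hxZ, h⟩))
          · exact Or.inr (Or.inr (Or.inr ⟨hx, hxZ, h⟩))
      · rintro (h | h | h | h)
        · exact hcfg.hZK h
        · exact h.1
        · exact h.1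
        · exact h.1
    have d3 : Disjoint ({x | x ∈ K ∧ x ∉ Z ∧ Q u₁ x = b₀} : Set G)
        {x | x ∈ K ∧ x ∉ Z ∧ Q u₁ x = a₀ * b₀} :=
      Set.disjoint_left.mpr (fun x hx hx' => hne_b_ab (hx.2.2.symm.trans hx'.2.2))
    have d2 : Disjoint ({x | x ∈ K ∧ x ∉ Z ∧ Q u₁ x = a₀} : Set G)
        ({x | x ∈ K ∧ x ∉ Z ∧ Q u₁ x = b₀} ∪ {x | x ∈ K ∧ x ∉ Z ∧ Q u₁ x = a₀ * b₀}) :=
      Set.disjoint_left.mpr (fun x hx hx' => by
        rcases hx' with h | h
        · exact hab₀ (hx.2.2.symm.trans h.2.2)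
        · exact hne_a_ab (hx.2.2.symm.trans h.2.2))
    have d1 : Disjoint (Z : Set G) ({x | x ∈ K ∧ x ∉ Z ∧ Q u₁ x = a₀} ∪
        ({x | x ∈ K ∧ x ∉ Z ∧ Q u₁ x = b₀} ∪ {x | x ∈ K ∧ x ∉ Z ∧ Q u₁ x = a₀ * b₀})) :=
      Set.disjoint_left.mpr (fun x hx hx' => by
        rcases hx' with h | h | h
        · exact h.2.1 hx
        · exact h.2.1 hx
        · exact h.2.1 hx)
    rw [hunion, Set.ncard_union_eq d1 (Set.toFinite _) (Set.toFinite _),
      Set.ncard_union_eq d2 (Set.toFinite _) (Set.toFinite _),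
      Set.ncard_union_eq d3 (Set.toFinite _) (Set.toFinite _), ← hN, hNb, hNab]
  -- divisibility of `N`
  have h3N : 3 ∣ N := by
    have ho : orderOf u₁ = 3 := orderOf_eq_prime hu₁pow hk₃1
    rw [hN, ← ho]
    apply orderOf_dvd_ncard_of_conj_free
    · rintro x ⟨hxK, hxZ, hxQ⟩
      refine ⟨hcfg.hnorm x hxK, ?_, ?_⟩
      · intro hcZ
        apply hxZ
        have h1 := hcfg.fixZ hcZ
        exact (hcfg.hfix x).mpr ⟨hxK, cj_inj u₁ h1⟩
      · rw [Q_cj rfl, hxQ, hu₁W a₀ ha₀W]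
    · rintro c hc hc1 x ⟨hxK, hxZ, -⟩ hfix
      apply hxZ
      have hfin : IsOfFinOrder u₁ := isOfFinOrder_of_finite u₁
      obtain ⟨j, hj⟩ := (Submonoid.mem_powers_iff _ _).mp (hfin.mem_powers_iff_mem_zpowers.mpr hc)
      rw [pow_eq_pow_mod j hu₁pow] at hj
      have hj3 : j % 3 < 3 := Nat.mod_lt _ (by norm_num)
      have hcases : j % 3 = 0 ∨ j % 3 = 1 ∨ j % 3 = 2 := by omega
      rcases hcases with h | h | h
      · rw [h, pow_zero] at hj
        exact absurd hj.symm hc1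
      · rw [h, pow_one] at hj
        rw [← hj] at hfix
        exact (hcfg.hfix x).mpr ⟨hxK, hfix⟩
      · rw [h] at hj
        rw [← hj] at hfix
        have e : cj (u₁ ^ 2) x = cj u₁ (cj u₁ x) := by rw [pow_two]; unfold cj; group
        rw [e] at hfix
        have h5 := congrArg (cj u₁) hfix
        rw [hcfg.cj3] at h5
        exact (hcfg.hfix x).mpr ⟨hxK, h5.symm⟩
  have hZN : Nat.card Z ∣ N := by
    rw [hN]
    apply card_dvd_ncard_of_free (Γ := Z) (α := G)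
    · rintro ⟨z, hz⟩ x ⟨hxK, hxZ, hxQ⟩
      have e : (⟨z, hz⟩ : Z) • x = z * x := rfl
      rw [e]
      refine ⟨K.mul_mem (hcfg.hZK hz) hxK, ?_, ?_⟩
      · intro hzx
        apply hxZ
        have : x = z⁻¹ * (z * x) := by group
        rw [this]
        exact Z.mul_mem (Z.inv_mem hz) hzx
      · rw [hcfg.Q_Z_mul hxK hz, hxQ]
    · rintro ⟨z, hz⟩ x _ hfix
      have e : (⟨z, hz⟩ : Z) • x = z * x := rfl
      rw [e] at hfix
      apply Subtype.ext
      have : z * x = 1 * x := by rw [one_mul]; exact hfix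
      exact mul_right_cancel this
  -- arithmetic
  have hK2 : IsPGroup 2 K := hO2.to_le hKO
  obtain ⟨a, ha⟩ := IsPGroup.iff_card.mp hK2
  obtain ⟨b, hb⟩ := IsPGroup.iff_card.mp (hK2.to_le hcfg.hZK)
  have hKc : Nat.card K = (K : Set G).ncard := Nat.card_coe_set_eq (K : Set G)
  have hZc : Nat.card Z = (Z : Set G).ncard := Nat.card_coe_set_eq (Z : Set G)
  have hcop : Nat.Coprime 3 (Nat.card Z) := by
    rw [hb]
    exact Nat.Coprime.pow_right b (by norm_num)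
  obtain ⟨c, hc⟩ := hcop.mul_dvd_of_dvd_of_dvd h3N hZN
  have hba : b ≤ a := by
    have h1 := Subgroup.card_le_of_le hcfg.hZK
    rw [ha, hb] at h1
    exact (Nat.pow_le_pow_iff_right (by norm_num)).mp h1
  have hsplit : 2 ^ a = 2 ^ b * 2 ^ (a - b) := by
    rw [← pow_add]
    congr 1
    omega
  have hkey : 2 ^ (a - b) = 1 + 9 * c := by
    have h1 : 2 ^ a = 2 ^ b + 3 * (3 * 2 ^ b * c) := by
      rw [← ha, ← hb, ← hc, hKc, hpart, hZc]
      ring
    rw [hsplit] at h1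
    have h2 : 2 ^ b * 2 ^ (a - b) = 2 ^ b * (1 + 9 * c) := by rw [h1]; ring
    exact Nat.eq_of_mul_eq_mul_left (by positivity) h2
  have hlt : 2 ^ (a - b) < 2 ^ 6 := by
    rw [ha, hb, hsplit] at hbound
    have h1 : 2 ^ b * 2 ^ (a - b) < 2 ^ b * 64 := by rw [mul_comm (2 ^ b) 64]; exact hbound
    exact Nat.lt_of_mul_lt_mul_left h1
  have hab6 : a - b < 6 := (Nat.pow_lt_pow_iff_right (by norm_num)).mp hlt
  have hc0 : c = 0 := by
    interval_cases hj : a - b <;> omega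
  have hN0 : N = 0 := by rw [hc, hc0, mul_zero]
  have hKZ : Nat.card K ≤ Nat.card Z := by
    rw [hKc, hpart, hZc, hN0]
    omega
  have hEq : Z = K := Subgroup.eq_of_le_of_card_ge hcfg.hZK hKZ
  apply hKt
  rw [← hEq, hZ]
  exact inf_le_right

end Cfsg.Agent.Lib.Helper90.R2T
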