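import Mathlib
import Cfsg.Prelude.Def_Local
import Cfsg.Agent.Lib.Helper22.Quasi
import Cfsg.Agent.Lib.Helper22.Comp

/-!
An abstract criterion for a standard subgroup (helper90): a quasisimple subgroup `L`, normalized
by `C_G(t)` for an involution `t`, whose centralizer is abelian with `t` as its only involution.
-/

set_option autoImplicit false

namespace Cfsg.Agent.Lib.Helper90.StdAbs

open Cfsg
open scoped commutatorElement Pointwise

variable {G : Type*} [Group G]

theorem normalizer_le_normalizer_centralizer (L : Subgroup G) :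
    Subgroup.normalizer (L : Set G) ≤
      Subgroup.normalizer (Subgroup.centralizer (L : Set G) : Set G) := by
  intro g hg
  have hg1 : ∀ l ∈ L, g * l * g⁻¹ ∈ L := fun l hl => (hg l).mp hl
  have hg2 : ∀ l ∈ L, g⁻¹ * l * g ∈ L := by
    intro l hl
    apply (hg (g⁻¹ * l * g)).mpr
    have : g * (g⁻¹ * l * g) * g⁻¹ = l := by group
    rw [this]; exact hl
  intro k
  constructor
  · intro hk
    rw [SetLike.mem_coe, Subgroup.mem_centralizer_iff] at hk ⊢
    intro l hl
    have h1 := hk (g⁻¹ * l * g) (hg2 l hl)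
    calc l * (g * k * g⁻¹) = g * (g⁻¹ * l * g * k) * g⁻¹ := by group
      _ = g * (k * (g⁻¹ * l * g)) * g⁻¹ := by rw [h1]
      _ = g * k * g⁻¹ * l := by group
  · intro hk
    rw [SetLike.mem_coe, Subgroup.mem_centralizer_iff] at hk ⊢
    intro l hl
    have h1 := hk (g * l * g⁻¹) (hg1 l hl)
    calc l * k = g⁻¹ * (g * l * g⁻¹ * (g * k * g⁻¹)) * g := by group
      _ = g⁻¹ * (g * k * g⁻¹ * (g * l * g⁻¹)) * g := by rw [h1]
      _ = k * l := by group

theorem isStandard_of_unique_involution [Finite G] (t : G) (L : Subgroup G)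
    (hq : IsQuasisimple ↥L)
    (hN : Subgroup.centralizer ({t} : Set G) ≤ Subgroup.normalizer (L : Set G))
    (htK : t ∈ Subgroup.centralizer (L : Set G))
    (ht2 : orderOf t = 2)
    (hcomm : ∀ x ∈ Subgroup.centralizer (L : Set G), ∀ y ∈ Subgroup.centralizer (L : Set G),
      x * y = y * x)
    (hinv : ∀ x ∈ Subgroup.centralizer (L : Set G), orderOf x = 2 → x = t) :
    IsStandardSubgroup L := by
  classical
  have hp2 : Fact (Nat.Prime 2) := ⟨Nat.prime_two⟩
  have hNK : Subgroup.centralizer ({t} : Set G) ≤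
      Subgroup.normalizer (Subgroup.centralizer (L : Set G) : Set G) :=
    hN.trans (normalizer_le_normalizer_centralizer L)
  have key : ∀ g : G, g * t * g⁻¹ ∈ Subgroup.centralizer (L : Set G) →
      g ∈ Subgroup.centralizer ({t} : Set G) := by
    intro g hg
    have h1 : orderOf (g * t * g⁻¹) = 2 := by
      rw [← MulAut.conj_apply, MulEquiv.orderOf_eq, ht2]
    have h2 := hinv _ hg h1
    rw [Subgroup.mem_centralizer_singleton_iff]
    calc g * t = g * t * g⁻¹ * g := by group
      _ = t * g := by rw [h2]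
  refine ⟨hq, ⟨?_, ?_⟩, ?_, ?_⟩
  · rw [even_iff_two_dvd, ← ht2]
    exact Subgroup.orderOf_dvd_natCard _ htK
  · intro g hg
    by_contra hodd
    rw [Nat.not_odd_iff_even, even_iff_two_dvd] at hodd
    obtain ⟨x, hx⟩ := exists_prime_orderOf_dvd_card' 2 hodd
    have hx2 : orderOf (x : G) = 2 := by rw [Subgroup.orderOf_coe]; exact hx
    have hxK : (x : G) ∈ Subgroup.centralizer (L : Set G) := (Subgroup.mem_inf.mp x.2).1
    have hxKg : (x : G) ∈ (Subgroup.centralizer (L : Set G)).map (MulAut.conj g).toMonoidHom :=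
      (Subgroup.mem_inf.mp x.2).2
    obtain ⟨y, hy, hyx⟩ := Subgroup.mem_map.mp hxKg
    have hyx' : g * y * g⁻¹ = (x : G) := hyx
    have hy2 : orderOf y = 2 := by
      rw [← hx2, ← hyx', ← MulAut.conj_apply, MulEquiv.orderOf_eq]
    have hyt := hinv y hy hy2
    have hxt := hinv x hxK hx2
    apply hg
    apply hNK
    apply key
    rw [← hyt, hyx']
    exact hxK
  · intro g hne hbot
    have h1 := Cfsg.Agent.Lib.Helper22.comm_of_commutator_eq_bot hbot
    have h2 : ∀ x ∈ L, g * x * g⁻¹ ∈ Subgroup.centralizer (L : Set G) := by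
      intro x hx
      rw [Subgroup.mem_centralizer_iff]
      intro l hl
      exact h1 l hl _ (Subgroup.mem_map_of_mem (MulAut.conj g).toMonoidHom hx)
    have h3 : ∀ a b : ↥L, a * b = b * a := by
      intro a b
      have h4 := hcomm _ (h2 a a.2) _ (h2 b b.2)
      apply Subtype.ext
      have h5 : (a : G) * b = g⁻¹ * ((g * a * g⁻¹) * (g * b * g⁻¹)) * g := by group
      rw [Subgroup.coe_mul, Subgroup.coe_mul, h5, h4]
      group
    exact Cfsg.Agent.Lib.Helper22.IsQuasisimple.not_isSolvable hq (isSolvable_of_comm h3)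
  · apply le_antisymm (normalizer_le_normalizer_centralizer L)
    intro g hg
    apply hN
    apply key
    exact (hg t).mp htK

end Cfsg.Agent.Lib.Helper90.StdAbs
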