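import Mathlib
import Cfsg.Prelude.Def_Local
import Cfsg.Agent.Lib.Helper22.Quasi
import Cfsg.Agent.Lib.Helper22.Comp
import Cfsg.Agent.Lib.Helper90.StdAbs

/-!
The layer of the centralizer of `t = diag(-1, ..., -1, 1)` in `SL (m+1) F` (odd characteristic,
`m` even, `SL m F` quasisimple) is the block `SL m F`, and it is a standard subgroup (helper90).
-/

set_option autoImplicit false

namespace Cfsg.Agent.Lib.Helper90.SLStd

open Cfsg
open scoped commutatorElement Pointwise

variable {F : Type*} [Field F] {m : ℕ}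

/-- Block diagonal with respect to the splitting `{0, ..., m-1} ∪ {m}`. -/
def IsBD (A : Matrix (Fin (m + 1)) (Fin (m + 1)) F) : Prop :=
  (∀ j : Fin m, A (Fin.last m) j.castSucc = 0) ∧ (∀ i : Fin m, A i.castSucc (Fin.last m) = 0)

/-- The upper left `m × m` corner. -/
def corner (A : Matrix (Fin (m + 1)) (Fin (m + 1)) F) : Matrix (Fin m) (Fin m) F :=
  A.submatrix Fin.castSucc Fin.castSucc

omit [Field F] in
theorem corner_apply (A : Matrix (Fin (m + 1)) (Fin (m + 1)) F) (i j : Fin m) :
    corner A i j = A i.castSucc j.castSucc := rfl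

theorem isBD_mul {A B : Matrix (Fin (m + 1)) (Fin (m + 1)) F} (hA : IsBD A) (hB : IsBD B) :
    IsBD (A * B) := by
  refine ⟨fun j => ?_, fun i => ?_⟩
  · rw [Matrix.mul_apply, Fin.sum_univ_castSucc, hB.1 j, mul_zero, add_zero]
    apply Finset.sum_eq_zero
    intro k _
    rw [hA.1 k, zero_mul]
  · rw [Matrix.mul_apply, Fin.sum_univ_castSucc, hA.2 i, zero_mul, add_zero]
    apply Finset.sum_eq_zero
    intro k _
    rw [hB.2 k, mul_zero]

theorem corner_mul {A B : Matrix (Fin (m + 1)) (Fin (m + 1)) F} (hA : IsBD A) :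
    corner (A * B) = corner A * corner B := by
  ext i j
  rw [corner_apply, Matrix.mul_apply, Matrix.mul_apply, Fin.sum_univ_castSucc, hA.2 i, zero_mul,
    add_zero]
  rfl

theorem mul_last_last {A B : Matrix (Fin (m + 1)) (Fin (m + 1)) F} (hA : IsBD A) :
    (A * B) (Fin.last m) (Fin.last m) = A (Fin.last m) (Fin.last m) * B (Fin.last m) (Fin.last m) := by
  rw [Matrix.mul_apply, Fin.sum_univ_castSucc, Finset.sum_eq_zero, zero_add]
  intro k _
  rw [hA.1 k, zero_mul]

theorem isBD_one : IsBD (1 : Matrix (Fin (m + 1)) (Fin (m + 1)) F) := by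
  refine ⟨fun j => ?_, fun i => ?_⟩
  · exact Matrix.one_apply_ne (Fin.castSucc_lt_last j).ne'
  · exact Matrix.one_apply_ne (Fin.castSucc_lt_last i).ne

theorem corner_one : corner (1 : Matrix (Fin (m + 1)) (Fin (m + 1)) F) = 1 := by
  ext i j
  rw [corner_apply, Matrix.one_apply, Matrix.one_apply]
  simp

/-- The embedding `S ↦ diag(S, 1)`. -/
def emb (S : Matrix (Fin m) (Fin m) F) : Matrix (Fin (m + 1)) (Fin (m + 1)) F :=
  Matrix.of (fun i j => if hi : i = Fin.last m then (if j = Fin.last m then (1 : F) else 0)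
    else if hj : j = Fin.last m then 0 else S (i.castPred hi) (j.castPred hj))

theorem emb_last_last (S : Matrix (Fin m) (Fin m) F) : emb S (Fin.last m) (Fin.last m) = 1 := by
  simp [emb]

theorem emb_last_castSucc (S : Matrix (Fin m) (Fin m) F) (j : Fin m) :
    emb S (Fin.last m) j.castSucc = 0 := by
  simp [emb]

theorem emb_castSucc_last (S : Matrix (Fin m) (Fin m) F) (i : Fin m) :
    emb S i.castSucc (Fin.last m) = 0 := by
  simp [emb]

theorem emb_castSucc_castSucc (S : Matrix (Fin m) (Fin m) F) (i j : Fin m) :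
    emb S i.castSucc j.castSucc = S i j := by
  simp [emb]

theorem isBD_emb (S : Matrix (Fin m) (Fin m) F) : IsBD (emb S) :=
  ⟨emb_last_castSucc S, emb_castSucc_last S⟩

theorem corner_emb (S : Matrix (Fin m) (Fin m) F) : corner (emb S) = S := by
  ext i j
  rw [corner_apply, emb_castSucc_castSucc]

theorem eq_emb_of_isBD {A : Matrix (Fin (m + 1)) (Fin (m + 1)) F} (hA : IsBD A)
    (h0 : A (Fin.last m) (Fin.last m) = 1) : A = emb (corner A) := by
  ext i j
  refine Fin.lastCases ?_ (fun i' => ?_) i <;> refine Fin.lastCases ?_ (fun j' => ?_) j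
  · rw [emb_last_last, h0]
  · rw [emb_last_castSucc, hA.1]
  · rw [emb_castSucc_last, hA.2]
  · rw [emb_castSucc_castSucc, corner_apply]

theorem emb_one : emb (1 : Matrix (Fin m) (Fin m) F) = 1 := by
  have h := eq_emb_of_isBD (isBD_one (F := F) (m := m)) (Matrix.one_apply_eq _)
  rw [corner_one] at h
  exact h.symm

theorem emb_mul (S T : Matrix (Fin m) (Fin m) F) : emb (S * T) = emb S * emb T := by
  have h := eq_emb_of_isBD (isBD_mul (isBD_emb S) (isBD_emb T))
    (by rw [mul_last_last (isBD_emb S), emb_last_last, emb_last_last, mul_one])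
  rw [corner_mul (isBD_emb S), corner_emb, corner_emb] at h
  exact h.symm

theorem det_eq_of_last_row {A : Matrix (Fin (m + 1)) (Fin (m + 1)) F}
    (hA : ∀ j : Fin m, A (Fin.last m) j.castSucc = 0) :
    A.det = A (Fin.last m) (Fin.last m) * (corner A).det := by
  rw [Matrix.det_succ_row A (Fin.last m), Fin.sum_univ_castSucc, Finset.sum_eq_zero, zero_add]
  · rw [Fin.succAbove_last]
    have h1 : ((-1 : F)) ^ ((Fin.last m : ℕ) + (Fin.last m : ℕ)) = 1 :=
      Even.neg_one_pow ⟨_, rfl⟩
    rw [h1, one_mul]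
    rfl
  · intro j _
    rw [hA j, mul_zero, zero_mul]

/-- The embedding of `SL m F` into `SL (m+1) F`. -/
def embSL : Matrix.SpecialLinearGroup (Fin m) F →* Matrix.SpecialLinearGroup (Fin (m + 1)) F where
  toFun S := ⟨emb (S : Matrix (Fin m) (Fin m) F), by
    rw [det_eq_of_last_row (isBD_emb _).1, emb_last_last, corner_emb, one_mul]; exact S.2⟩
  map_one' := Subtype.ext emb_one
  map_mul' S T := Subtype.ext (emb_mul _ _)

theorem embSL_val (S : Matrix.SpecialLinearGroup (Fin m) F) :
    ((embSL S : Matrix.SpecialLinearGroup (Fin (m + 1)) F) : Matrix (Fin (m + 1)) (Fin (m + 1)) F)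
      = emb (S : Matrix (Fin m) (Fin m) F) := rfl

theorem embSL_injective : Function.Injective (embSL (F := F) (m := m)) := by
  intro S T h
  have h1 := congrArg (fun g : Matrix.SpecialLinearGroup (Fin (m + 1)) F =>
    corner (g : Matrix (Fin (m + 1)) (Fin (m + 1)) F)) h
  simp only [embSL_val, corner_emb] at h1
  exact Subtype.ext h1

theorem mem_range_iff (g : Matrix.SpecialLinearGroup (Fin (m + 1)) F) :
    g ∈ (embSL (F := F) (m := m)).range ↔
      IsBD (g : Matrix (Fin (m + 1)) (Fin (m + 1)) F) ∧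
        (g : Matrix (Fin (m + 1)) (Fin (m + 1)) F) (Fin.last m) (Fin.last m) = 1 := by
  constructor
  · rintro ⟨S, rfl⟩
    exact ⟨isBD_emb _, emb_last_last _⟩
  · rintro ⟨h1, h2⟩
    have h3 := eq_emb_of_isBD h1 h2
    have h4 : (corner (g : Matrix (Fin (m + 1)) (Fin (m + 1)) F)).det = 1 := by
      have h5 := det_eq_of_last_row h1.1
      rw [h2, one_mul, g.2] at h5
      exact h5.symm
    exact ⟨⟨corner (g : Matrix (Fin (m + 1)) (Fin (m + 1)) F), h4⟩, Subtype.ext h3.symm⟩

/-- The diagonal of `t`. -/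
def tvec : Fin (m + 1) → F := fun i => if (i : ℕ) + 1 = m + 1 then (1 : F) else -1

theorem tvec_last : (tvec (Fin.last m) : F) = 1 := by
  simp [tvec]

theorem tvec_castSucc (i : Fin m) : (tvec i.castSucc : F) = -1 := by
  have := i.2
  simp only [tvec, Fin.val_castSucc]
  rw [if_neg (by omega)]

theorem isBD_of_comm (h2 : (2 : F) ≠ 0) {A : Matrix (Fin (m + 1)) (Fin (m + 1)) F}
    (h : A * Matrix.diagonal tvec = Matrix.diagonal tvec * A) : IsBD A := by
  refine ⟨fun j => ?_, fun i => ?_⟩
  · have h1 := congrFun (congrFun h (Fin.last m)) j.castSucc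
    rw [Matrix.mul_diagonal, Matrix.diagonal_mul, tvec_last, tvec_castSucc] at h1
    have h3 : (2 : F) * A (Fin.last m) j.castSucc = 0 := by linear_combination -h1
    exact (mul_eq_zero.mp h3).resolve_left h2
  · have h1 := congrFun (congrFun h i.castSucc) (Fin.last m)
    rw [Matrix.mul_diagonal, Matrix.diagonal_mul, tvec_last, tvec_castSucc] at h1
    have h3 : (2 : F) * A i.castSucc (Fin.last m) = 0 := by linear_combination h1
    exact (mul_eq_zero.mp h3).resolve_left h2

theorem comm_of_isBD {A : Matrix (Fin (m + 1)) (Fin (m + 1)) F} (h : IsBD A) :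
    A * Matrix.diagonal tvec = Matrix.diagonal tvec * A := by
  ext i j
  rw [Matrix.mul_diagonal, Matrix.diagonal_mul]
  refine Fin.lastCases ?_ (fun i' => ?_) i <;> refine Fin.lastCases ?_ (fun j' => ?_) j <;>
    simp [tvec_last, tvec_castSucc, h.1, h.2]

theorem mem_centralizer_iff (h2 : (2 : F) ≠ 0)
    {t : Matrix.SpecialLinearGroup (Fin (m + 1)) F}
    (ht : (t : Matrix (Fin (m + 1)) (Fin (m + 1)) F) = Matrix.diagonal tvec)
    (g : Matrix.SpecialLinearGroup (Fin (m + 1)) F) :
    g ∈ Subgroup.centralizer ({t} : Set (Matrix.SpecialLinearGroup (Fin (m + 1)) F)) ↔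
      IsBD (g : Matrix (Fin (m + 1)) (Fin (m + 1)) F) := by
  rw [Subgroup.mem_centralizer_singleton_iff]
  constructor
  · intro h
    have h1 := congrArg Subtype.val h
    rw [Matrix.SpecialLinearGroup.coe_mul, Matrix.SpecialLinearGroup.coe_mul, ht] at h1
    exact isBD_of_comm h2 h1
  · intro h
    apply Subtype.ext
    rw [Matrix.SpecialLinearGroup.coe_mul, Matrix.SpecialLinearGroup.coe_mul, ht]
    exact comm_of_isBD h

/-- The lower right entry, as a monoid homomorphism on a group of block diagonal matrices. -/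
def lastHom (C : Subgroup (Matrix.SpecialLinearGroup (Fin (m + 1)) F))
    (hC : ∀ g ∈ C, IsBD (g : Matrix (Fin (m + 1)) (Fin (m + 1)) F)) : ↥C →* F where
  toFun c := (c.1 : Matrix (Fin (m + 1)) (Fin (m + 1)) F) (Fin.last m) (Fin.last m)
  map_one' := Matrix.one_apply_eq _
  map_mul' a _ := mul_last_last (hC a.1 a.2)

/-- The diagonal `(a, ..., a, b)`. -/
def dvec (a b : F) : Fin (m + 1) → F := fun i => if i = Fin.last m then b else a

omit [Field F] in
theorem dvec_last (a b : F) : dvec a b (Fin.last m) = b := by simp [dvec]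

omit [Field F] in
theorem dvec_castSucc (a b : F) (i : Fin m) : dvec a b i.castSucc = a := by simp [dvec]

theorem dvec_neg_one_one : dvec (-1 : F) 1 = (tvec : Fin (m + 1) → F) := by
  funext i
  refine Fin.lastCases ?_ (fun i' => ?_) i
  · rw [dvec_last, tvec_last]
  · rw [dvec_castSucc, tvec_castSucc]

theorem diagonal_dvec_one_one :
    Matrix.diagonal (dvec (1 : F) 1 : Fin (m + 1) → F) = 1 := by
  rw [← Matrix.diagonal_one]
  congr 1
  funext i
  simp [dvec]

theorem diag_of_mem_centralizer (hm : 2 ≤ m) (x : Matrix.SpecialLinearGroup (Fin (m + 1)) F)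
    (hx : x ∈ Subgroup.centralizer
      (((embSL (F := F) (m := m)).range : Subgroup (Matrix.SpecialLinearGroup (Fin (m + 1)) F)) :
        Set (Matrix.SpecialLinearGroup (Fin (m + 1)) F))) :
    ∃ a b : F, (x : Matrix (Fin (m + 1)) (Fin (m + 1)) F) = Matrix.diagonal (dvec a b) := by
  have hc : ∀ i j : Fin m, i ≠ j →
      Commute (Matrix.single i.castSucc j.castSucc (1 : F))
        (x : Matrix (Fin (m + 1)) (Fin (m + 1)) F) := by
    intro i j hij
    have hne : i.castSucc ≠ j.castSucc := fun h => hij (Fin.castSucc_injective _ h)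
    obtain ⟨T, hTval⟩ : ∃ T : Matrix.SpecialLinearGroup (Fin (m + 1)) F,
        (T : Matrix (Fin (m + 1)) (Fin (m + 1)) F) =
          Matrix.transvection i.castSucc j.castSucc (1 : F) :=
      ⟨⟨Matrix.transvection i.castSucc j.castSucc 1,
        Matrix.det_transvection_of_ne _ _ hne 1⟩, rfl⟩
    have hT : T ∈ (embSL (F := F) (m := m)).range := by
      rw [mem_range_iff, hTval]
      refine ⟨⟨fun k => ?_, fun k => ?_⟩, ?_⟩
      · simp [Matrix.transvection, (Fin.castSucc_lt_last k).ne']
      · simp [Matrix.transvection]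
      · simp [Matrix.transvection]
    have h1 := Subgroup.mem_centralizer_iff.mp hx _ hT
    have h2 : Matrix.transvection i.castSucc j.castSucc (1 : F) *
        (x : Matrix (Fin (m + 1)) (Fin (m + 1)) F) =
        (x : Matrix (Fin (m + 1)) (Fin (m + 1)) F) *
          Matrix.transvection i.castSucc j.castSucc (1 : F) := by
      rw [← hTval]
      exact congrArg Subtype.val h1
    unfold Matrix.transvection at h2
    rw [add_mul, mul_add, one_mul, mul_one] at h2
    exact add_left_cancel h2
  obtain ⟨i0, i1, h01⟩ : ∃ i0 i1 : Fin m, i0 ≠ i1 :=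
    ⟨⟨0, by omega⟩, ⟨1, by omega⟩, by simp [Fin.ext_iff]⟩
  have hex : ∀ i : Fin m, ∃ j : Fin m, j ≠ i := by
    intro i
    by_cases h : i = i0
    · exact ⟨i1, by rw [h]; exact h01.symm⟩
    · exact ⟨i0, fun h' => h h'.symm⟩
  refine ⟨(x : Matrix (Fin (m + 1)) (Fin (m + 1)) F) i0.castSucc i0.castSucc,
    (x : Matrix (Fin (m + 1)) (Fin (m + 1)) F) (Fin.last m) (Fin.last m), ?_⟩
  ext p q
  refine Fin.lastCases ?_ (fun i => ?_) p <;> refine Fin.lastCases ?_ (fun j => ?_) q
  · rw [Matrix.diagonal_apply_eq, dvec_last]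
  · rw [Matrix.diagonal_apply_ne _ (Fin.castSucc_lt_last j).ne']
    obtain ⟨j', hj'⟩ := hex j
    exact Matrix.col_eq_zero_of_commute_single (hc j j' hj'.symm) (Fin.castSucc_lt_last j).ne'
  · rw [Matrix.diagonal_apply_ne _ (Fin.castSucc_lt_last i).ne]
    obtain ⟨i', hi'⟩ := hex i
    exact Matrix.row_eq_zero_of_commute_single (hc i' i hi') (Fin.castSucc_lt_last i).ne'
  · by_cases hij : i = j
    · subst hij
      rw [Matrix.diagonal_apply_eq, dvec_castSucc]
      by_cases hi0 : i = i0
      · rw [hi0]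
      · exact Matrix.diag_eq_of_commute_single (hc i i0 hi0)
    · have hne : i.castSucc ≠ j.castSucc := fun h => hij (Fin.castSucc_injective _ h)
      rw [Matrix.diagonal_apply_ne _ hne]
      exact Matrix.row_eq_zero_of_commute_single (hc j i (Ne.symm hij)) (Ne.symm hne)

theorem main [Finite F] (h2 : (2 : F) ≠ 0) (hm : 2 ≤ m) (hme : Even m)
    (hq : IsQuasisimple (Matrix.SpecialLinearGroup (Fin m) F))
    (t : Matrix.SpecialLinearGroup (Fin (m + 1)) F)
    (ht : (t : Matrix (Fin (m + 1)) (Fin (m + 1)) F) = Matrix.diagonal tvec) :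
    IsStandardSubgroup ((layer ↥(Subgroup.centralizer
      ({t} : Set (Matrix.SpecialLinearGroup (Fin (m + 1)) F)))).map
        (Subgroup.centralizer
          ({t} : Set (Matrix.SpecialLinearGroup (Fin (m + 1)) F))).subtype) := by
  classical
  have hfin : Finite (Matrix.SpecialLinearGroup (Fin (m + 1)) F) :=
    Finite.of_injective (fun g => (g : Matrix (Fin (m + 1)) (Fin (m + 1)) F))
      Subtype.val_injective
  set C := Subgroup.centralizer ({t} : Set (Matrix.SpecialLinearGroup (Fin (m + 1)) F))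
    with hCdef
  set L := (embSL (F := F) (m := m)).range with hLdef
  have hC : ∀ g ∈ C, IsBD (g : Matrix (Fin (m + 1)) (Fin (m + 1)) F) :=
    fun g hg => (mem_centralizer_iff h2 ht g).mp hg
  have hLC : L ≤ C := fun g hg =>
    (mem_centralizer_iff h2 ht g).mpr ((mem_range_iff g).mp hg).1
  have hker : L.subgroupOf C = (lastHom C hC).ker := by
    ext c
    rw [Subgroup.mem_subgroupOf, MonoidHom.mem_ker, mem_range_iff]
    exact ⟨fun h => h.2, fun h => ⟨hC c.1 c.2, h⟩⟩
  have hnorm : (L.subgroupOf C).Normal := by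
    rw [hker]
    exact MonoidHom.normal_ker _
  have hqL : IsQuasisimple ↥L :=
    Cfsg.Agent.Lib.Helper22.isQuasisimple_of_mulEquiv
      (MonoidHom.ofInjective embSL_injective).symm hq
  have hlayer : layer ↥C = L.subgroupOf C := by
    apply le_antisymm
    · rw [Cfsg.Agent.Lib.Helper22.layer_le_iff]
      intro K hK
      rw [← Cfsg.Agent.Lib.Helper22.IsComponent.perfect hK, hker, Subgroup.commutator_le]
      intro a _ b _
      rw [MonoidHom.mem_ker, commutatorElement_def, map_mul, map_mul, map_mul]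
      have ha : lastHom C hC a * lastHom C hC a⁻¹ = 1 := by
        rw [← map_mul, mul_inv_cancel, map_one]
      have hb : lastHom C hC b * lastHom C hC b⁻¹ = 1 := by
        rw [← map_mul, mul_inv_cancel, map_one]
      calc lastHom C hC a * lastHom C hC b * lastHom C hC a⁻¹ * lastHom C hC b⁻¹
          = (lastHom C hC a * lastHom C hC a⁻¹) * (lastHom C hC b * lastHom C hC b⁻¹) := by
            ring
        _ = 1 := by rw [ha, hb, mul_one]
    · apply Cfsg.Agent.Lib.Helper22.component_le_layer
      exact ⟨hnorm.isSubnormal, Cfsg.Agent.Lib.Helper22.isQuasisimple_of_mulEquiv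
        (Subgroup.subgroupOfEquivOfLe hLC) hqL⟩
  have hmap : (layer ↥C).map C.subtype = L := by
    rw [hlayer]
    exact Subgroup.map_subgroupOf_eq_of_le hLC
  rw [hmap]
  have hdiag : ∀ x ∈ Subgroup.centralizer (L : Set (Matrix.SpecialLinearGroup (Fin (m + 1)) F)),
      ∃ a b : F, (x : Matrix (Fin (m + 1)) (Fin (m + 1)) F) = Matrix.diagonal (dvec a b) :=
    fun x hx => diag_of_mem_centralizer hm x hx
  have hi0 : 0 < m := by omega
  apply Cfsg.Agent.Lib.Helper90.StdAbs.isStandard_of_unique_involution t L hqL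
  · exact (Subgroup.normal_subgroupOf_iff_le_normalizer hLC).mp hnorm
  · rw [Subgroup.mem_centralizer_iff]
    intro h hh
    exact Subgroup.mem_centralizer_singleton_iff.mp (hLC hh)
  · have hp2 : Fact (Nat.Prime 2) := ⟨Nat.prime_two⟩
    apply orderOf_eq_prime
    · rw [pow_two]
      apply Subtype.ext
      rw [Matrix.SpecialLinearGroup.coe_mul, ht, Matrix.diagonal_mul_diagonal,
        Matrix.SpecialLinearGroup.coe_one, ← Matrix.diagonal_one]
      congr 1
      funext i
      refine Fin.lastCases ?_ (fun i' => ?_) i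
      · rw [tvec_last, mul_one]
      · rw [tvec_castSucc]
        ring
    · intro h
      have h1 : (t : Matrix (Fin (m + 1)) (Fin (m + 1)) F) (Fin.castSucc ⟨0, hi0⟩)
          (Fin.castSucc ⟨0, hi0⟩) = 1 := by
        rw [h, Matrix.SpecialLinearGroup.coe_one, Matrix.one_apply_eq]
      rw [ht, Matrix.diagonal_apply_eq, tvec_castSucc] at h1
      apply h2
      linear_combination -h1
  · intro x hx y hy
    obtain ⟨a, b, hab⟩ := hdiag x hx
    obtain ⟨c, d, hcd⟩ := hdiag y hy
    apply Subtype.ext
    rw [Matrix.SpecialLinearGroup.coe_mul, Matrix.SpecialLinearGroup.coe_mul, hab, hcd,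
      Matrix.diagonal_mul_diagonal, Matrix.diagonal_mul_diagonal]
    congr 1
    funext i
    exact mul_comm _ _
  · intro x hx hx2
    obtain ⟨a, b, hab⟩ := hdiag x hx
    have hxx : x * x = 1 := by
      rw [← pow_two, ← hx2]
      exact pow_orderOf_eq_one x
    have hxx' : Matrix.diagonal (dvec a b) * Matrix.diagonal (dvec a b) =
        (1 : Matrix (Fin (m + 1)) (Fin (m + 1)) F) := by
      rw [← hab, ← Matrix.SpecialLinearGroup.coe_mul, hxx, Matrix.SpecialLinearGroup.coe_one]
    rw [Matrix.diagonal_mul_diagonal, ← Matrix.diagonal_one] at hxx'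
    have hfun := Matrix.diagonal_injective hxx'
    have haa : a * a = 1 := by
      have h3 : dvec a b (Fin.castSucc ⟨0, hi0⟩) * dvec a b (Fin.castSucc ⟨0, hi0⟩) = 1 :=
        congrFun hfun (Fin.castSucc ⟨0, hi0⟩)
      rw [dvec_castSucc] at h3
      exact h3
    have hbb : b * b = 1 := by
      have h3 : dvec a b (Fin.last m) * dvec a b (Fin.last m) = 1 :=
        congrFun hfun (Fin.last m)
      rw [dvec_last] at h3
      exact h3
    have hdet : a ^ m * b = 1 := by
      have h3 := x.2
      rw [hab, Matrix.det_diagonal, Fin.prod_univ_castSucc] at h3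
      simpa [dvec_castSucc, dvec_last] using h3
    rcases mul_self_eq_one_iff.mp haa with ha | ha
    · exfalso
      rw [ha, one_pow, one_mul] at hdet
      have hx1 : x = 1 := by
        apply Subtype.ext
        rw [hab, ha, hdet, Matrix.SpecialLinearGroup.coe_one]
        exact diagonal_dvec_one_one
      rw [hx1, orderOf_one] at hx2
      omega
    · rw [ha, hme.neg_one_pow, one_mul] at hdet
      apply Subtype.ext
      rw [hab, ha, hdet, ht, dvec_neg_one_one]

end Cfsg.Agent.Lib.Helper90.SLStd
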