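import Mathlib
import Cfsg.Agent.Lib.Helper90.ZG

/-!
# Relabelling a transitive group of degree `p + 1` and order `(p + 1) p d`, `d < p`

Such a group is conjugate (by a bijection of the points with `Option (ZMod p)`) to a group
satisfying `ZGood`.
-/

set_option autoImplicit false

namespace Cfsg.Agent.Lib.Helper90.ZG

open Equiv Cfsg.Agent.Lib.Helper5.Zass

/-- A permutation of prime order `p` of `p + 1` points has exactly one fixed point. -/
theorem exists_unique_fix {α : Type*} [Fintype α] [DecidableEq α] {p : ℕ} [hp : Fact p.Prime]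
    (hα : Fintype.card α = p + 1) (z : Perm α) (hz : orderOf z = p) :
    ∃ a : α, z a = a ∧ ∀ b, z b = b → b = a := by
  have hpp : p.Prime := hp.out
  have h1 : z ^ p ^ 1 = 1 := by rw [pow_one, ← hz]; exact pow_orderOf_eq_one z
  have h2 := Perm.card_compl_support_modEq (p := p) (n := 1) h1
  rw [hα] at h2
  have h3 : z.supportᶜ.card ≤ p + 1 := by
    rw [← hα]; exact Finset.card_le_univ _
  have h4 : z.supportᶜ.card ≠ p + 1 := by
    intro h
    have h5 : z.supportᶜ = Finset.univ := by
      apply Finset.eq_univ_of_card; rw [h, hα]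
    have h6 : z.support = ∅ := by
      rw [← compl_compl z.support, h5]; simp
    have h7 : z = 1 := Perm.support_eq_empty_iff.1 h6
    rw [h7, orderOf_one] at hz
    exact hpp.one_lt.ne hz
  have h5 : z.supportᶜ.card = 1 := by
    have h6 : z.supportᶜ.card % p = (p + 1) % p := h2
    have h7 : (p + 1) % p = 1 := by
      rw [Nat.add_mod_left]; exact Nat.mod_eq_of_lt hpp.one_lt
    rw [h7] at h6
    by_cases h8 : z.supportᶜ.card < p
    · rwa [Nat.mod_eq_of_lt h8] at h6
    · have h9 : z.supportᶜ.card = p := by omega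
      rw [h9, Nat.mod_self] at h6
      omega
  obtain ⟨a, ha⟩ := Finset.card_eq_one.1 h5
  refine ⟨a, ?_, ?_⟩
  · have : a ∈ z.supportᶜ := by rw [ha]; exact Finset.mem_singleton_self a
    simpa using this
  · intro b hb
    have : b ∈ z.supportᶜ := by simpa using hb
    rw [ha] at this
    exact Finset.mem_singleton.1 this

/-- The relabelling. -/
theorem exists_relabel {α : Type*} [Fintype α] [DecidableEq α] {p : ℕ} [hp : Fact p.Prime]
    (hα : Fintype.card α = p + 1) (z : Perm α) (hz : orderOf z = p) :
    ∃ e : α ≃ Option (ZMod p), e.permCongrHom z = Tr (1 : ZMod p) := by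
  have hpp : p.Prime := hp.out
  obtain ⟨a, ha, hau⟩ := exists_unique_fix hα z hz
  have hpow : ∀ k : ℕ, 0 < k → k < p → ∀ b, (z ^ k) b = b → b = a := by
    intro k hk0 hkp b hb
    have hcop : Nat.Coprime (orderOf z) k := by
      rw [hz]; exact hpp.coprime_iff_not_dvd.2 (Nat.not_dvd_of_pos_of_lt hk0 hkp)
    have hord : orderOf (z ^ k) = p := by rw [hcop.orderOf_pow, hz]
    obtain ⟨a', ha', hau'⟩ := exists_unique_fix hα (z ^ k) hord
    have h1 : (z ^ k) a = a := by
      have : ∀ n : ℕ, (z ^ n) a = a := by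
        intro n
        induction n with
        | zero => simp
        | succ n ih => rw [pow_succ, Perm.mul_apply, ha, ih]
      exact this k
    rw [hau' b hb, hau' a h1]
  have hza : ∀ n : ℕ, (z ^ n) a = a := by
    intro n
    induction n with
    | zero => simp
    | succ n ih => rw [pow_succ, Perm.mul_apply, ha, ih]
  have hcard : 1 < Fintype.card α := by rw [hα]; have := hpp.two_le; omega
  obtain ⟨b₀, hb₀⟩ : ∃ b₀ : α, b₀ ≠ a := by
    haveI : Nontrivial α := Fintype.one_lt_card_iff_nontrivial.1 hcard
    exact exists_ne a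
  let f : Option (ZMod p) → α := fun x =>
    match x with
    | none => a
    | some i => (z ^ i.val) b₀
  have hfn : f none = a := rfl
  have hfs : ∀ i : ZMod p, f (some i) = (z ^ i.val) b₀ := fun i => rfl
  have hne : ∀ i : ZMod p, (z ^ i.val) b₀ ≠ a := by
    intro i h
    have h1 : (z ^ i.val) b₀ = (z ^ i.val) a := by rw [h, hza]
    exact hb₀ ((z ^ i.val).injective h1)
  have hinj : Function.Injective f := by
    have key : ∀ i j : ZMod p, i.val ≤ j.val → (z ^ i.val) b₀ = (z ^ j.val) b₀ → i = j := by
      intro i j hij h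
      have h1 : (z ^ (j.val - i.val)) b₀ = b₀ := by
        apply (z ^ i.val).injective
        rw [← Perm.mul_apply, ← pow_add, Nat.add_sub_cancel' hij, ← h]
      by_contra hne'
      have h2 : i.val ≠ j.val := fun h => hne' (ZMod.val_injective p h)
      have h3 : j.val < p := ZMod.val_lt j
      exact hb₀ (hpow (j.val - i.val) (by omega) (by omega) b₀ h1)
    intro x y hxy
    cases x with
    | none =>
      cases y with
      | none => rfl
      | some j => exact absurd hxy.symm (hne j)
    | some i =>
      cases y with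
      | none => exact absurd hxy (hne i)
      | some j =>
        rw [hfs, hfs] at hxy
        rcases le_total i.val j.val with h | h
        · rw [key i j h hxy]
        · rw [key j i h hxy.symm]
  have hbij : Function.Bijective f := by
    rw [Fintype.bijective_iff_injective_and_card]
    refine ⟨hinj, ?_⟩
    rw [Fintype.card_option, ZMod.card, hα]
  let e₀ : Option (ZMod p) ≃ α := Equiv.ofBijective f hbij
  refine ⟨e₀.symm, Equiv.ext fun x => ?_⟩
  show e₀.symm (z (e₀ x)) = Tr 1 x
  rw [Equiv.symm_apply_eq]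
  show z (f x) = f (Tr 1 x)
  cases x with
  | none => rw [Tr_none, hfn, ha]
  | some i =>
    rw [Tr_some, hfs, hfs, ← Perm.mul_apply, ← pow_succ']
    have h1 : (i + 1).val = (i.val + 1) % p := by
      have : Fact (1 < p) := ⟨hpp.one_lt⟩
      rw [ZMod.val_add, ZMod.val_one]
    rw [h1]
    have h2 : z ^ ((i.val + 1) % p) = z ^ (i.val + 1) := by
      have h3 := pow_mod_orderOf z (i.val + 1)
      rw [hz] at h3
      exact h3
    rw [h2]

/-- A transitive group of degree `p + 1` and order `(p + 1) p d` with `d < p` is conjugate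
to a group satisfying `ZGood`. -/
theorem exists_ZGood {α : Type*} [Fintype α] [DecidableEq α] {p d : ℕ} [hp : Fact p.Prime]
    (hα : Fintype.card α = p + 1) (G : Subgroup (Perm α)) [MulAction.IsPretransitive G α]
    (hG : Nat.card G = (p + 1) * p * d) (hd : d < p) :
    ∃ e : α ≃ Option (ZMod p),
      ZGood p d (G.map (e.permCongrHom : Perm α →* Perm (Option (ZMod p)))) := by
  classical
  have hpp : p.Prime := hp.out
  have hd0 : 0 < d := by
    rcases Nat.eq_zero_or_pos d with h | h
    · rw [h, mul_zero] at hG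
      exact absurd hG Nat.card_pos.ne'
    · exact h
  have hpd : ¬ p ∣ d := Nat.not_dvd_of_pos_of_lt hd0 hd
  obtain ⟨zG, hzG⟩ := exists_prime_orderOf_dvd_card' (G := G) p (by
    rw [hG]; exact Dvd.dvd.mul_right (Dvd.intro_left _ rfl) _)
  have hz : orderOf (zG : Perm α) = p := by rw [Subgroup.orderOf_coe, hzG]
  obtain ⟨e, he⟩ := exists_relabel hα (zG : Perm α) hz
  obtain ⟨a, ha, hau⟩ := exists_unique_fix hα (zG : Perm α) hz
  have hea : e a = none := by
    have h1 : Tr (1 : ZMod p) (e a) = e a := by
      rw [← he]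
      show e ((zG : Perm α) (e.symm (e a))) = e a
      rw [Equiv.symm_apply_apply, ha]
    cases h : e a with
    | none => rfl
    | some x =>
      rw [h, Tr_some] at h1
      have h2 : x + 1 = x := Option.some.inj h1
      have h3 : (1 : ZMod p) = 0 := by linear_combination h2
      have : Fact (1 < p) := ⟨hpp.one_lt⟩
      exact absurd h3 one_ne_zero
  -- the stabiliser
  let T : Subgroup G := MulAction.stabilizer G a
  have hTidx : T.index = p + 1 := by
    rw [MulAction.index_stabilizer_of_transitive, Nat.card_eq_fintype_card, hα]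
  have hTcard : Nat.card T = p * d := by
    have h1 := T.card_mul_index
    rw [hTidx, hG] at h1
    have h2 : Nat.card T * (p + 1) = (p * d) * (p + 1) := by rw [h1]; ring
    exact Nat.eq_of_mul_eq_mul_right (Nat.succ_pos p) h2
  have hzT : zG ∈ T := by
    rw [MulAction.mem_stabilizer_iff]; exact ha
  let zT : T := ⟨zG, hzT⟩
  have hzTord : orderOf zT = p := by
    rw [← hzG]; exact (Subgroup.orderOf_coe zT).symm
  -- Sylow
  have hfac : (Nat.card T).factorization p = 1 := by
    rw [hTcard, Nat.factorization_mul hpp.ne_zero hd0.ne']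
    simp [hpp.factorization_self, Nat.factorization_eq_zero_of_not_dvd hpd]
  have hQcard : ∀ Q : Sylow p T, Nat.card Q = p := by
    intro Q
    rw [Sylow.card_eq_multiplicity, hfac, pow_one]
  have hsyl : Nat.card (Sylow p T) = 1 := by
    obtain ⟨Q⟩ : Nonempty (Sylow p T) := inferInstance
    have h1 : Nat.card (Sylow p T) ∣ d := by
      have h2 := Sylow.card_dvd_index Q
      have h3 := (Q : Subgroup T).card_mul_index
      rw [hQcard Q, hTcard] at h3
      have h4 : (Q : Subgroup T).index = d := Nat.eq_of_mul_eq_mul_left hpp.pos h3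
      rwa [h4] at h2
    have h5 := card_sylow_modEq_one p T
    have h6 : Nat.card (Sylow p T) ≤ d := Nat.le_of_dvd hd0 h1
    have h7 : Nat.card (Sylow p T) % p = 1 % p := h5
    rw [Nat.mod_eq_of_lt (lt_of_le_of_lt h6 hd), Nat.mod_eq_of_lt hpp.one_lt] at h7
    exact h7
  haveI : Subsingleton (Sylow p T) := (Nat.card_eq_one_iff_unique.1 hsyl).1
  have hpg : IsPGroup p (Subgroup.zpowers zT) := by
    apply IsPGroup.of_card (n := 1)
    rw [Nat.card_zpowers, hzTord, pow_one]
  obtain ⟨Q, hQ⟩ := hpg.exists_le_sylow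
  have hQeq : Subgroup.zpowers zT = (Q : Subgroup T) := by
    apply Subgroup.eq_of_le_of_card_ge hQ
    rw [hQcard Q, Nat.card_zpowers, hzTord]
  have hQn : (Q : Subgroup T).Normal := Sylow.normal_of_subsingleton Q
  have hnorm : ∀ g ∈ G, g a = a → ∃ n : ℤ, g * (zG : Perm α) * g⁻¹ = (zG : Perm α) ^ n := by
    intro g hg hga
    let t : T := ⟨⟨g, hg⟩, by rw [MulAction.mem_stabilizer_iff]; exact hga⟩
    have h1 : t * zT * t⁻¹ ∈ (Q : Subgroup T) :=
      hQn.conj_mem zT (hQeq ▸ Subgroup.mem_zpowers zT) t
    rw [← hQeq] at h1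
    obtain ⟨n, hn⟩ := Subgroup.mem_zpowers_iff.1 h1
    refine ⟨n, ?_⟩
    have h2 := congrArg (fun x : T => ((x : G) : Perm α)) hn
    simp only [Subgroup.coe_zpow, Subgroup.coe_mul, Subgroup.coe_inv] at h2
    exact h2.symm
  refine ⟨e, ?_, ?_, ?_, ?_⟩
  · rw [← hG]
    exact (Nat.card_congr ((e.permCongrHom).subgroupMap G).toEquiv).symm
  · rw [← he]
    exact Subgroup.mem_map_of_mem _ zG.2
  · rintro h ⟨g, hg, rfl⟩ hfix
    have hga : g a = a := by
      have h1 : e (g (e.symm none)) = none := hfix
      have h2 : e.symm none = a := by rw [← hea, Equiv.symm_apply_apply]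
      rw [h2] at h1
      apply e.injective
      rw [h1, hea]
    obtain ⟨n, hn⟩ := hnorm g hg hga
    rw [Subgroup.mem_zpowers_iff]
    refine ⟨n, ?_⟩
    rw [← he, ← map_zpow, ← hn, map_mul, map_mul, map_inv]
    rfl
  · obtain ⟨b₀, hb₀⟩ : ∃ b₀ : α, b₀ ≠ a := by
      have hcard : 1 < Fintype.card α := by rw [hα]; have := hpp.two_le; omega
      haveI : Nontrivial α := Fintype.one_lt_card_iff_nontrivial.1 hcard
      exact exists_ne a
    obtain ⟨g, hg⟩ := MulAction.exists_smul_eq G a b₀
    refine ⟨e.permCongrHom (g : Perm α), Subgroup.mem_map_of_mem _ g.2, ?_⟩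
    show e ((g : Perm α) (e.symm none)) ≠ none
    have h2 : e.symm none = a := by rw [← hea, Equiv.symm_apply_apply]
    rw [h2]
    intro h3
    have h4 : (g : Perm α) a = b₀ := hg
    rw [h4, ← hea] at h3
    exact hb₀ (e.injective h3)

end Cfsg.Agent.Lib.Helper90.ZG
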