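import Mathlib
import Cfsg.Prelude.Def_LieExceptional
import Cfsg.Agent.Lib.Helper90.ZG

/-!
# `ZGood` groups generated by the conjugates of the translation are Zassenhaus groups
-/

set_option autoImplicit false

namespace Cfsg.Agent.Lib.Helper90.ZG

open Equiv Cfsg.Agent.Lib.Helper5.Zass

open scoped Pointwise

variable {p d : ℕ} [Fact p.Prime] {H : Subgroup (Perm (Option (ZMod p)))}

/-- `H` is the normal closure of the translation: no proper normal subgroup contains it. -/
def NC (H : Subgroup (Perm (Option (ZMod p)))) : Prop :=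
  ∀ M : Subgroup H, M.Normal → (∃ t ∈ M, (t : Perm (Option (ZMod p))) = Tr 1) → M = ⊤

theorem ZGood.two_trans' (hH : ZGood p d H) {a b c e : Option (ZMod p)} (hab : a ≠ b)
    (hce : c ≠ e) : ∃ g ∈ H, g a = c ∧ g b = e := by
  obtain ⟨g₁, hg₁, h1, h2⟩ := hH.two_trans hab
  obtain ⟨g₂, hg₂, h3, h4⟩ := hH.two_trans hce
  refine ⟨g₂ * g₁⁻¹, H.mul_mem hg₂ (H.inv_mem hg₁), ?_, ?_⟩
  · rw [Perm.mul_apply, ← h1, pinv_apply, h3]
  · rw [Perm.mul_apply, ← h2, pinv_apply, h4]

theorem Aff_injective {k k' : (ZMod p)ˣ} (h : Aff k 0 = Aff k' 0) : k = k' := by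
  have := congrArg (fun π : Perm (Option (ZMod p)) => π (some 1)) h
  simp only [Aff_some, mul_one, add_zero] at this
  exact Units.ext (Option.some.inj this)

/-- The stabiliser of two points has order `d`. -/
theorem ZGood.card_two_stab (hH : ZGood p d H) {a b : Option (ZMod p)} (hab : a ≠ b) :
    Nat.card ↥(MulAction.stabilizer H a ⊓ MulAction.stabilizer H b : Subgroup H) = d := by
  obtain ⟨g, hg, hga, hgb⟩ := hH.two_trans hab
  have hga' : g⁻¹ a = none := by rw [Perm.inv_eq_iff_eq]; exact hga.symm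
  have hgb' : g⁻¹ b = some 0 := by rw [Perm.inv_eq_iff_eq]; exact hgb.symm
  let F : K H → ↥(MulAction.stabilizer H a ⊓ MulAction.stabilizer H b : Subgroup H) := fun k =>
    ⟨⟨g * Aff (k : (ZMod p)ˣ) 0 * g⁻¹, H.mul_mem (H.mul_mem hg k.2) (H.inv_mem hg)⟩, by
      rw [Subgroup.mem_inf, MulAction.mem_stabilizer_iff, MulAction.mem_stabilizer_iff]
      constructor
      · show (g * Aff (k : (ZMod p)ˣ) 0 * g⁻¹) a = a
        rw [Perm.mul_apply, Perm.mul_apply, hga', Aff_none, hga]
      · show (g * Aff (k : (ZMod p)ˣ) 0 * g⁻¹) b = b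
        rw [Perm.mul_apply, Perm.mul_apply, hgb', Aff_some, mul_zero, add_zero, hgb]⟩
  have hF : Function.Bijective F := by
    constructor
    · intro k k' hkk
      have h1 : g * Aff (k : (ZMod p)ˣ) 0 * g⁻¹ = g * Aff (k' : (ZMod p)ˣ) 0 * g⁻¹ :=
        congrArg (fun x : ↥(MulAction.stabilizer H a ⊓ MulAction.stabilizer H b : Subgroup H) =>
          ((x : H) : Perm (Option (ZMod p)))) hkk
      have h2 : Aff (k : (ZMod p)ˣ) 0 = Aff (k' : (ZMod p)ˣ) 0 := by
        have := congrArg (fun x => g⁻¹ * x * g) h1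
        simpa [mul_assoc] using this
      exact Subtype.ext (Aff_injective h2)
    · rintro ⟨⟨x, hx⟩, hxs⟩
      rw [Subgroup.mem_inf, MulAction.mem_stabilizer_iff, MulAction.mem_stabilizer_iff] at hxs
      have hxa : x a = a := hxs.1
      have hxb : x b = b := hxs.2
      have hmem : g⁻¹ * x * g ∈ H := H.mul_mem (H.mul_mem (H.inv_mem hg) hx) hg
      have hfix : (g⁻¹ * x * g) none = none := by
        rw [Perm.mul_apply, Perm.mul_apply, hga, hxa, hga']
      have hfix0 : (g⁻¹ * x * g) (some 0) = some 0 := by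
        rw [Perm.mul_apply, Perm.mul_apply, hgb, hxb, hgb']
      obtain ⟨k, c, hk, hkc⟩ := hH.affine' hmem hfix
      have hc : c = 0 := by
        rw [hkc, Aff_some, mul_zero, zero_add] at hfix0
        exact Option.some.inj hfix0
      subst hc
      refine ⟨⟨k, hk⟩, ?_⟩
      apply Subtype.ext
      apply Subtype.ext
      show g * Aff k 0 * g⁻¹ = x
      rw [← hkc]; group
  rw [← Nat.card_congr (Equiv.ofBijective F hF), hH.card_K]

/-- A normal subgroup of index a power of a prime divisor of `d` is everything. -/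
theorem ZGood.no_normal_compl (hH : ZGood p d H) (hNC : NC H) {q : ℕ} (hq : q.Prime)
    (hqd : q ∣ d) :
    ¬ ∃ N : Subgroup H, N.Normal ∧ N.index = q ^ (Nat.card H).factorization q := by
  have hp : p.Prime := Fact.out
  rintro ⟨N, hN, hidx⟩
  have hqp : q ≠ p := by
    intro h
    have h1 : q ∣ p - 1 := hqd.trans hH.d_dvd
    rw [h] at h1
    have := Nat.le_of_dvd (by have := hp.two_le; omega) h1
    have := hp.two_le
    omega
  let t : H := ⟨Tr 1, hH.tr_mem⟩
  have htp : t ^ p = 1 := by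
    apply Subtype.ext
    show (Tr (1 : ZMod p)) ^ p = 1
    rw [Tr_pow, ZMod.natCast_self, Tr_zero]
  have h1 : ((t : H) : H ⧸ N) ^ p = 1 := by
    rw [← QuotientGroup.mk_pow, htp]; rfl
  have h2 : ((t : H) : H ⧸ N) ^ (q ^ (Nat.card H).factorization q) = 1 := by
    rw [← hidx, Subgroup.index_eq_card]
    exact pow_card_eq_one'
  have h3 : orderOf ((t : H) : H ⧸ N) ∣ p := orderOf_dvd_of_pow_eq_one h1
  have h4 : orderOf ((t : H) : H ⧸ N) ∣ q ^ (Nat.card H).factorization q :=
    orderOf_dvd_of_pow_eq_one h2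
  have hcop : Nat.Coprime p (q ^ (Nat.card H).factorization q) :=
    Nat.Coprime.pow_right _ ((Nat.coprime_primes hp hq).2 (Ne.symm hqp))
  have h5 : orderOf ((t : H) : H ⧸ N) = 1 := Nat.eq_one_of_dvd_coprimes hcop h3 h4
  have h6 : t ∈ N := by
    rw [orderOf_eq_one_iff] at h5
    exact (QuotientGroup.eq_one_iff t).1 h5
  have h7 : N = ⊤ := hNC N hN ⟨t, h6, rfl⟩
  rw [h7, Subgroup.index_top] at hidx
  have hq_dvd : q ∣ Nat.card H := by
    rw [hH.card]; exact Dvd.dvd.mul_left hqd _
  have hpos : 0 < (Nat.card H).factorization q :=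
    hq.factorization_pos_of_dvd Nat.card_pos.ne' hq_dvd
  have : 1 < q ^ (Nat.card H).factorization q := Nat.one_lt_pow hpos.ne' hq.one_lt
  omega

/-- A `ZGood` group with `1 < d` generated by the conjugates of the translation is a
Zassenhaus group. -/
theorem ZGood.isZassenhaus (hH : ZGood p d H) (hd : 1 < d) (hNC : NC H) :
    Cfsg.IsZassenhausGroup H (Option (ZMod p)) := by
  have hp : p.Prime := Fact.out
  refine ⟨⟨fun {g₁ g₂} h => Subtype.ext (Equiv.ext h)⟩, ?_, ?_, ?_, ?_⟩
  · rw [MulAction.is_two_pretransitive_iff]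
    intro a b c e hab hce
    obtain ⟨g, hg, h1, h2⟩ := hH.two_trans' hab hce
    exact ⟨⟨g, hg⟩, h1, h2⟩
  · intro g a b c hab hbc hac ha hb hc
    exact Subtype.ext (hH.eq_one_of_fix3 g.2 hab hac hbc ha hb hc)
  · have h1 : 1 < Nat.card (K H) := by rw [hH.card_K]; exact hd
    obtain ⟨k, hk⟩ := Subgroup.ne_bot_iff_exists_ne_one.1
      ((Subgroup.one_lt_card_iff_ne_bot (K H)).1 h1)
    refine ⟨⟨Aff (k : (ZMod p)ˣ) 0, k.2⟩, ?_, none, some 0, by simp, rfl, ?_⟩
    · intro h
      have h2 : Aff (k : (ZMod p)ˣ) 0 = 1 := congrArg Subtype.val h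
      rw [← Aff_one] at h2
      exact hk (Subtype.ext (Aff_injective h2))
    · show Aff (k : (ZMod p)ˣ) 0 (some 0) = some 0
      rw [Aff_some, mul_zero, add_zero]
  · intro N hN htr
    by_contra hall
    push Not at hall
    -- `N` is regular of order `p + 1`
    have hNcard : Nat.card N = p + 1 := by
      have h1 := MulAction.index_stabilizer_of_transitive N (none : Option (ZMod p))
      rw [hall none, Subgroup.index_bot] at h1
      rw [h1, Nat.card_eq_fintype_card, Fintype.card_option, ZMod.card]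
    let t : H := ⟨Tr 1, hH.tr_mem⟩
    have htord : orderOf t = p := by
      have h1 : orderOf (Tr (1 : ZMod p)) = p := by
        apply orderOf_eq_prime
        · rw [Tr_pow, ZMod.natCast_self, Tr_zero]
        · intro h
          have := congrArg (fun π : Perm (Option (ZMod p)) => π (some 0)) h
          simp only [Tr_some, zero_add, Perm.coe_one, id_eq] at this
          have h2 : (1 : ZMod p) = 0 := Option.some.inj this
          have : Fact (1 < p) := ⟨hp.one_lt⟩
          exact one_ne_zero h2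
      exact (Subgroup.orderOf_coe t).symm.trans h1
    -- decomposition of elements
    have hdec : ∀ h : H, ∃ n ∈ N, ∃ s : H, (s : Perm (Option (ZMod p))) none = none ∧
        h = n * s := by
      intro h
      obtain ⟨n, hn⟩ := MulAction.exists_smul_eq N (none : Option (ZMod p)) (h • none)
      refine ⟨n, n.2, (n : H)⁻¹ * h, ?_, by group⟩
      have h1 : ((n : H) : Perm (Option (ZMod p))) none = (h : Perm (Option (ZMod p))) none := hn
      show (((n : H) : Perm (Option (ZMod p)))⁻¹ * (h : Perm (Option (ZMod p)))) none = none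
      rw [Perm.mul_apply, ← h1, pinv_apply]
    have hsZ : ∀ s : H, (s : Perm (Option (ZMod p))) none = none →
        ∀ y ∈ Subgroup.zpowers t, s * y * s⁻¹ ∈ Subgroup.zpowers t := by
      intro s hs y hy
      obtain ⟨i, rfl⟩ := Subgroup.mem_zpowers_iff.1 hy
      have h1 : (s : Perm (Option (ZMod p))) * Tr 1 * (s : Perm (Option (ZMod p)))⁻¹ ∈
          Subgroup.zpowers (Tr (1 : ZMod p)) := hH.norm s s.2 hs
      obtain ⟨j, hj⟩ := Subgroup.mem_zpowers_iff.1 h1
      have h2 : s * t * s⁻¹ = t ^ j := by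
        apply Subtype.ext
        rw [Subgroup.coe_zpow]
        exact hj.symm
      have h3 : s * t ^ i * s⁻¹ = (s * t * s⁻¹) ^ i := by
        rw [conj_zpow]
      rw [h3, h2, ← zpow_mul]
      exact Subgroup.zpow_mem_zpowers t _
    let M : Subgroup H := N ⊔ Subgroup.zpowers t
    have hmemM : ∀ x : H, x ∈ M ↔ ∃ n ∈ N, ∃ y ∈ Subgroup.zpowers t, n * y = x := by
      intro x
      have h1 : (↑(N ⊔ Subgroup.zpowers t) : Set H) = (N : Set H) * (Subgroup.zpowers t : Set H) :=
        Subgroup.normal_mul N (Subgroup.zpowers t)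
      show x ∈ (↑(N ⊔ Subgroup.zpowers t) : Set H) ↔ _
      rw [h1, Set.mem_mul]
      rfl
    have hMn : M.Normal := by
      constructor
      intro x hx h
      obtain ⟨n, hn, y, hy, rfl⟩ := (hmemM x).1 hx
      obtain ⟨n₀, hn₀, s, hs, rfl⟩ := hdec h
      have hy' : s * y * s⁻¹ ∈ Subgroup.zpowers t := hsZ s hs y hy
      rw [hmemM]
      refine ⟨(n₀ * s) * n * (n₀ * s)⁻¹ * (n₀ * ((s * y * s⁻¹) * n₀⁻¹ * (s * y * s⁻¹)⁻¹)),
        ?_, s * y * s⁻¹, hy', by group⟩
      refine N.mul_mem (hN.conj_mem n hn _) (N.mul_mem hn₀ ?_)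
      exact hN.conj_mem _ (N.inv_mem hn₀) _
    have hMtop : M = ⊤ := hNC M hMn ⟨t, Subgroup.mem_sup_right (Subgroup.mem_zpowers t), rfl⟩
    have hsurj : Function.Surjective
        (fun x : N × Subgroup.zpowers t => ((x.1 : H) * (x.2 : H))) := by
      intro h
      have h1 : h ∈ M := by rw [hMtop]; exact Subgroup.mem_top h
      obtain ⟨n, hn, y, hy, rfl⟩ := (hmemM h).1 h1
      exact ⟨(⟨n, hn⟩, ⟨y, hy⟩), rfl⟩
    have hle := Nat.card_le_card_of_surjective _ hsurj
    rw [Nat.card_prod, hNcard, Nat.card_zpowers, htord, hH.card] at hle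
    have h1 : (p + 1) * p * 2 ≤ (p + 1) * p * d := Nat.mul_le_mul_left _ hd
    have h2 : 0 < (p + 1) * p := Nat.mul_pos (Nat.succ_pos p) hp.pos
    omega

end Cfsg.Agent.Lib.Helper90.ZG
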