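import Mathlib
import Cfsg.Agent.Lib.Helper90.ZZ
import Cfsg.Agent.S0739

/-!
# The case `2 d = p - 1`, `d` odd: the group contains `x ↦ -1/x`
-/

set_option autoImplicit false

namespace Cfsg.Agent.Lib.Helper90.ZG

open Equiv Cfsg.Agent.Lib.Helper5.Zass

variable {p d : ℕ} [Fact p.Prime] {H : Subgroup (Perm (Option (ZMod p)))}

theorem ZGood.mem_K_iff (hH : ZGood p d H) (h2d : 2 * d = p - 1) (k : (ZMod p)ˣ) :
    k ∈ K H ↔ (k : ZMod p) ^ d = 1 := by
  have hp : p.Prime := Fact.out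
  have hm : p = 2 * d + 1 := by have := hp.two_le; omega
  exact (hH.toGood h2d).mem_K_iff hm k

/-- A group containing `x ↦ -1/x` is the standard group. -/
theorem ZGood.eq_L_of_Sig (hH : ZGood p d H) (h2d : 2 * d = p - 1) (hSigmem : Sig ∈ H) :
    H = L p d := by
  have hTrL : ∀ u : ZMod p, Tr u ∈ L p d := by
    intro u
    have : Tr u = Tr 1 ^ u.val := by rw [Tr_pow, ZMod.natCast_zmod_val]
    rw [this]
    have h1 : Tr (1 : ZMod p) ∈ L p d := Subgroup.subset_closure (Or.inl (Or.inl rfl))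
    exact pow_mem h1 _
  have hSigL : (Sig : Perm (Option (ZMod p))) ∈ L p d :=
    Subgroup.subset_closure (Or.inl (Or.inr rfl))
  have hfixL : ∀ h ∈ H, h none = none → h ∈ L p d := by
    intro h hh hfix
    obtain ⟨k, b, rfl⟩ := hH.affine hh hfix
    have hk := hH.mem_K_of_Aff_mem hh
    have : Aff k b = Tr b * Aff k 0 := by rw [Tr_mul_Aff, zero_add]
    rw [this]
    exact (L p d).mul_mem (hTrL b)
      (Subgroup.subset_closure (Or.inr ⟨k, (hH.mem_K_iff h2d k).1 hk, rfl⟩))
  apply le_antisymm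
  · intro h hh
    rcases ho : h none with _ | x
    · exact hfixL h hh ho
    · have hmem : Sig⁻¹ * (Tr x)⁻¹ * h ∈ H :=
        H.mul_mem (H.mul_mem (H.inv_mem hSigmem) (H.inv_mem (hH.Tr_mem x))) hh
      have hfix : (Sig⁻¹ * (Tr x)⁻¹ * h : Perm (Option (ZMod p))) none = none := by
        rw [Perm.mul_apply, Perm.mul_apply, ho, Tr_inv, Tr_some, add_neg_cancel,
          Perm.inv_eq_iff_eq, Sig_none]
      have h2 := hfixL _ hmem hfix
      have h3 : h = Tr x * Sig * (Sig⁻¹ * (Tr x)⁻¹ * h) := by group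
      rw [h3]
      exact (L p d).mul_mem ((L p d).mul_mem (hTrL x) hSigL) h2
  · rw [L, Subgroup.closure_le]
    rintro π (hπ | ⟨k, hk, rfl⟩)
    · simp only [Set.mem_insert_iff, Set.mem_singleton_iff] at hπ
      rcases hπ with rfl | rfl
      · exact hH.tr_mem
      · exact hSigmem
    · exact (hH.mem_K_iff h2d k).2 hk

/-- For odd `d`, every swap inverts the two-point stabiliser. -/
theorem ZGood.swap_inv_of_odd (hH : ZGood p d H) (hNC : NC H) (hd : 1 < d) (hodd : Odd d)
    {s : Perm (Option (ZMod p))} (hs : s ∈ H) (hs0 : s none = some 0) (hs1 : s (some 0) = none)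
    {k : (ZMod p)ˣ} (hk : k ∈ K H) : s * Aff k 0 = Aff k⁻¹ 0 * s := by
  have hZ := hH.isZassenhaus hd hNC
  have hab : (none : Option (ZMod p)) ≠ some 0 := by simp
  have hcard := hH.card_two_stab hab
  have h1 := Cfsg.Agent.S0739.result hZ hab (by rw [hcard]; exact hodd)
    (fun q hq hqd => hH.no_normal_compl hNC hq (by rwa [hcard] at hqd))
  have h2 := h1.2.2 ⟨s, hs⟩ hs0 hs1 ⟨Aff k 0, hk⟩ (by
    rw [Subgroup.mem_inf, MulAction.mem_stabilizer_iff, MulAction.mem_stabilizer_iff]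
    refine ⟨rfl, ?_⟩
    show Aff k 0 (some 0) = some 0
    rw [Aff_some, mul_zero, add_zero])
  have h3 : s * Aff k 0 * s⁻¹ = (Aff k 0)⁻¹ := congrArg Subtype.val h2
  rw [Aff_inv] at h3
  rw [← h3]; group

theorem pow_d_dichotomy (h2d : 2 * d = p - 1) (x : ZMod p) (hx : x ≠ 0) :
    x ^ d = 1 ∨ x ^ d = -1 := by
  have h1 : x ^ (p - 1) = 1 := ZMod.pow_card_sub_one_eq_one hx
  rw [← h2d, mul_comm, pow_mul] at h1
  have h2 : (x ^ d - 1) * (x ^ d + 1) = 0 := by linear_combination h1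
  rcases mul_eq_zero.1 h2 with h | h
  · left; linear_combination h
  · right; linear_combination h

theorem ZGood.odd_swap_aux (hH : ZGood p d H) (hNC : NC H) (h2d : 2 * d = p - 1) (hd : 1 < d)
    (hodd : Odd d) {s : Perm (Option (ZMod p))} (hs : s ∈ H) (hs0 : s none = some 0)
    (hs1 : s (some 0) = none) :
    s * s = 1 ∧ ∃ f : ZMod p → ZMod p, (∀ x, x ≠ 0 → f x ≠ 0) ∧
      (∀ x, x ≠ 0 → s (some x) = some (f x)) ∧
      (∀ k : (ZMod p)ˣ, k ∈ K H → ∀ x, x ≠ 0 → f (k * x) = (k⁻¹ : (ZMod p)ˣ) * f x) ∧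
      (∀ x, x ≠ 0 → f (f x) = x) := by
  have hp : p.Prime := Fact.out
  have hp7 : 2 < p := by omega
  have : Fact (2 < p) := ⟨hp7⟩
  have hneg : ∀ k : (ZMod p)ˣ, k ∈ K H → (k : ZMod p) ≠ -1 := by
    intro k hk h
    have h1 := (hH.mem_K_iff h2d k).1 hk
    rw [h, hodd.neg_one_pow] at h1
    exact ZMod.neg_one_ne_one h1
  have hss : s * s = 1 := by
    have hmem : s * s ∈ H := H.mul_mem hs hs
    have hfix : (s * s) none = none := by rw [Perm.mul_apply, hs0, hs1]
    have hfix0 : (s * s) (some 0) = some 0 := by rw [Perm.mul_apply, hs1, hs0]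
    obtain ⟨k₀, c, hk₀, hkc⟩ := hH.affine' hmem hfix
    have hc : c = 0 := by
      rw [hkc, Aff_some, mul_zero, zero_add] at hfix0
      exact Option.some.inj hfix0
    subst hc
    have h1 := hH.swap_inv_of_odd hNC hd hodd hs hs0 hs1 hk₀
    rw [← hkc] at h1
    have h2 : s * s = Aff k₀⁻¹ 0 := by
      have h3 : (s * s) * s = Aff k₀⁻¹ 0 * s := by rw [← h1]; group
      exact mul_right_cancel h3
    rw [hkc] at h2
    have h4 : k₀ = k₀⁻¹ := Aff_injective h2
    have h5 : (k₀ : ZMod p) * k₀ = 1 := by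
      have h6 : k₀ * k₀ = 1 := by
        nth_rewrite 2 [h4]; exact mul_inv_cancel k₀
      have := congrArg (fun u : (ZMod p)ˣ => (u : ZMod p)) h6
      simpa using this
    have h7 : ((k₀ : ZMod p) - 1) * ((k₀ : ZMod p) + 1) = 0 := by linear_combination h5
    have h8 : (k₀ : ZMod p) = 1 := by
      rcases mul_eq_zero.1 h7 with h | h
      · linear_combination h
      · exact absurd (by linear_combination h) (hneg k₀ hk₀)
    have h9 : k₀ = 1 := Units.ext h8
    rw [hkc, h9, Aff_one]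
  refine ⟨hss, ?_⟩
  choose! f hf0 hf using swap_some hs0 hs1
  refine ⟨f, hf0, hf, ?_, ?_⟩
  · intro k hk x hx
    have h1 := hH.swap_inv_of_odd hNC hd hodd hs hs0 hs1 hk
    have h2 := congrArg (fun π : Perm (Option (ZMod p)) => π (some x)) h1
    simp only [Perm.mul_apply, Aff_some, add_zero] at h2
    have hkx : (k : ZMod p) * x ≠ 0 := mul_ne_zero k.ne_zero hx
    rw [hf _ hkx, hf x hx, Aff_some, add_zero] at h2
    exact Option.some.inj h2
  · intro x hx
    have h1 := congrArg (fun π : Perm (Option (ZMod p)) => π (some x)) hss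
    simp only [Perm.mul_apply, Perm.coe_one, id_eq] at h1
    rw [hf x hx, hf _ (hf0 x hx)] at h1
    exact Option.some.inj h1

/-- For `2 d = p - 1` with `d` odd, the group contains `x ↦ -1/x`. -/
theorem ZGood.Sig_mem_of_odd (hH : ZGood p d H) (hNC : NC H) (h2d : 2 * d = p - 1) (hd : 1 < d)
    (hodd : Odd d) : Sig ∈ H := by
  have hp : p.Prime := Fact.out
  have hp7 : 2 < p := by omega
  have : Fact (2 < p) := ⟨hp7⟩
  have hneg : ∀ k : (ZMod p)ˣ, k ∈ K H → (k : ZMod p) ≠ -1 := by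
    intro k hk h
    have h1 := (hH.mem_K_iff h2d k).1 hk
    rw [h, hodd.neg_one_pow] at h1
    exact ZMod.neg_one_ne_one h1
  obtain ⟨s, hs, hs0, hs1⟩ := hH.exists_swap
  obtain ⟨hss, f, hf0, hf, hfk, hff⟩ := hH.odd_swap_aux hNC h2d hd hodd hs hs0 hs1
  set c := f 1 with hc
  have hc0 : c ≠ 0 := hf0 1 one_ne_zero
  rcases pow_d_dichotomy h2d c hc0 with hcd | hcd
  · -- `c ∈ K`: contradiction
    exfalso
    let kc : (ZMod p)ˣ := Units.mk0 c hc0
    have hkc : kc ∈ K H := (hH.mem_K_iff h2d kc).2 hcd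
    have hkc' : kc⁻¹ ∈ K H := (K H).inv_mem hkc
    let s' : Perm (Option (ZMod p)) := Aff kc⁻¹ 0 * s
    have hs' : s' ∈ H := H.mul_mem hkc' hs
    have hs'0 : s' none = some 0 := by
      show (Aff kc⁻¹ 0 * s) none = some 0
      rw [Perm.mul_apply, hs0, Aff_some, mul_zero, add_zero]
    have hs'1 : s' (some 0) = none := by
      show (Aff kc⁻¹ 0 * s) (some 0) = none
      rw [Perm.mul_apply, hs1, Aff_none]
    obtain ⟨hss', f', hf'0, hf', -, hff'⟩ := hH.odd_swap_aux hNC h2d hd hodd hs' hs'0 hs'1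
    have hf'1 : f' 1 = 1 := by
      have h1 : s' (some 1) = some 1 := by
        show (Aff kc⁻¹ 0 * s) (some 1) = some 1
        rw [Perm.mul_apply, hf 1 one_ne_zero, Aff_some, add_zero]
        congr 1
        show ((kc⁻¹ : (ZMod p)ˣ) : ZMod p) * c = 1
        have : ((kc⁻¹ * kc : (ZMod p)ˣ) : ZMod p) = 1 := by rw [inv_mul_cancel]; rfl
        rw [Units.val_mul] at this
        exact this
      rw [hf' 1 one_ne_zero] at h1
      exact Option.some.inj h1
    have hm1 : (-1 : ZMod p) ≠ 0 := neg_ne_zero.2 one_ne_zero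
    set c₂ := f' (-1) with hc₂
    have hc₂0 : c₂ ≠ 0 := hf'0 _ hm1
    have hfc₂ : f' c₂ = -1 := hff' _ hm1
    let g : Perm (Option (ZMod p)) := s' * Tr (-1) * s' * Tr 1 * s'
    have hgdef : g = s' * Tr (-1) * s' * Tr 1 * s' := rfl
    have hg : g ∈ H :=
      H.mul_mem (H.mul_mem (H.mul_mem (H.mul_mem hs' (hH.Tr_mem _)) hs') (hH.Tr_mem _)) hs'
    have hgn : g none = none := by
      rw [hgdef]
      simp only [Perm.mul_apply]
      rw [hs'0, Tr_some, zero_add, hf' 1 one_ne_zero, hf'1, Tr_some, add_neg_cancel, hs'1]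
    obtain ⟨a, b, ha, hab⟩ := hH.affine' hg hgn
    have hg0 : g (some 0) = some c₂ := by
      rw [hgdef]
      simp only [Perm.mul_apply]
      rw [hs'1, Tr_none, hs'0, Tr_some, zero_add, hf' _ hm1]
    have hgc : g (some c₂) = some 0 := by
      rw [hgdef]
      simp only [Perm.mul_apply]
      rw [hf' _ hc₂0, hfc₂, Tr_some, neg_add_cancel, hs'1, Tr_none, hs'0]
    rw [hab, Aff_some] at hg0 hgc
    have hb : b = c₂ := by
      have := Option.some.inj hg0
      rw [mul_zero, zero_add] at this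
      exact this
    have ha1 : (a : ZMod p) = -1 := by
      have h1 := Option.some.inj hgc
      rw [hb] at h1
      have h2 : ((a : ZMod p) + 1) * c₂ = 0 := by linear_combination h1
      rcases mul_eq_zero.1 h2 with h | h
      · linear_combination h
      · exact absurd h hc₂0
    exact hneg a ha ha1
  · -- `-c ∈ K`
    have hnc0 : -c ≠ 0 := neg_ne_zero.2 hc0
    let k₁ : (ZMod p)ˣ := Units.mk0 (-c) hnc0
    have hk₁ : k₁ ∈ K H := by
      rw [hH.mem_K_iff h2d]
      show (-c) ^ d = 1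
      rw [neg_pow, hodd.neg_one_pow, hcd]; ring
    have hk₁v : (k₁ : ZMod p) = -c := rfl
    have hk₁i : ((k₁⁻¹ : (ZMod p)ˣ) : ZMod p) = (-c)⁻¹ := by
      rw [Units.val_inv_eq_inv_val]; rfl
    have hm1 : (-1 : ZMod p) ≠ 0 := neg_ne_zero.2 one_ne_zero
    have hfc : f c = 1 := hff 1 one_ne_zero
    have hfm1 : f (-1) = -c := by
      have h1 := hfk k₁ hk₁ (-1) hm1
      rw [hk₁v, hk₁i] at h1
      have h2 : -c * -1 = c := by ring
      rw [h2, hfc] at h1
      have h3 : f (-1) = (-c) * ((-c)⁻¹ * f (-1)) := by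
        rw [← mul_assoc, mul_inv_cancel₀ hnc0, one_mul]
      rw [h3, ← h1, mul_one]
    have hfx : ∀ x : ZMod p, x ≠ 0 → f x = c * x⁻¹ := by
      intro x hx
      rcases pow_d_dichotomy h2d x hx with hxd | hxd
      · let kx : (ZMod p)ˣ := Units.mk0 x hx
        have hkx : kx ∈ K H := (hH.mem_K_iff h2d kx).2 hxd
        have h1 := hfk kx hkx 1 one_ne_zero
        have h2 : ((kx⁻¹ : (ZMod p)ˣ) : ZMod p) = x⁻¹ := by
          rw [Units.val_inv_eq_inv_val]; rfl
        have h3 : (kx : ZMod p) = x := rfl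
        rw [h2, h3, mul_one] at h1
        rw [h1]; ring
      · have hnx : -x ≠ 0 := neg_ne_zero.2 hx
        let kx : (ZMod p)ˣ := Units.mk0 (-x) hnx
        have hkx : kx ∈ K H := by
          rw [hH.mem_K_iff h2d]
          show (-x) ^ d = 1
          rw [neg_pow, hodd.neg_one_pow, hxd]; ring
        have h1 := hfk kx hkx (-1) hm1
        have h2 : ((kx⁻¹ : (ZMod p)ˣ) : ZMod p) = (-x)⁻¹ := by
          rw [Units.val_inv_eq_inv_val]; rfl
        have h3 : (kx : ZMod p) = -x := rfl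
        rw [h2, h3, hfm1] at h1
        have h4 : -x * -1 = x := by ring
        rw [h4] at h1
        rw [h1]
        field_simp
    have hsig : Sig = Aff k₁⁻¹ 0 * s := Equiv.ext fun z => by
      cases z with
      | none => rw [Perm.mul_apply, Sig_none, hs0, Aff_some, mul_zero, add_zero]
      | some x =>
        by_cases hx : x = 0
        · rw [hx, Perm.mul_apply, Sig_zero, hs1, Aff_none]
        · rw [Perm.mul_apply, Sig_some hx, hf x hx, hfx x hx, Aff_some, add_zero, hk₁i]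
          congr 1
          field_simp
    rw [hsig]
    exact H.mul_mem ((K H).inv_mem hk₁) hs

end Cfsg.Agent.Lib.Helper90.ZG
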