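import Mathlib
import Cfsg.Agent.Lib.Helper90.ZD1

/-!
# The case `2 d = p - 1`, `d` even: the group contains `x ↦ -1/x`
-/

set_option autoImplicit false

namespace Cfsg.Agent.Lib.Helper90.ZG

open Equiv Cfsg.Agent.Lib.Helper5.Zass

variable {p d : ℕ} [Fact p.Prime] {H : Subgroup (Perm (Option (ZMod p)))}

/-- An involutory swap fixing `1` and `-1`, for even `d`. -/
theorem ZGood.even_swap (hH : ZGood p d H) (h2d : 2 * d = p - 1) (heven : Even d) :
    ∃ s ∈ H, s none = some 0 ∧ s (some 0) = none ∧ s * s = 1 ∧ s (some 1) = some 1 ∧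
      s (some (-1)) = some (-1) := by
  have hp : p.Prime := Fact.out
  have hd0 : 0 < d := hH.d_pos
  have hp5 : 2 < p := by
    obtain ⟨j, hj⟩ := heven
    omega
  have : Fact (2 < p) := ⟨hp5⟩
  have h11 : (1 : ZMod p) ≠ -1 := fun h => ZMod.neg_one_ne_one h.symm
  have hm1K : (-1 : (ZMod p)ˣ) ∈ K H := by
    rw [hH.mem_K_iff h2d]
    show (((-1 : (ZMod p)ˣ) : ZMod p)) ^ d = 1
    rw [Units.val_neg, Units.val_one, heven.neg_one_pow]
  let z : Perm (Option (ZMod p)) := Aff (-1) 0
  have hzH : z ∈ H := hm1K
  have hz : ∀ x : ZMod p, z (some x) = some (-x) := by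
    intro x
    show Aff (-1) 0 (some x) = some (-x)
    rw [Aff_some, Units.val_neg, Units.val_one]
    congr 1; ring
  have hzn : z none = none := rfl
  have hzz : z * z = 1 := by
    show Aff (-1) 0 * Aff (-1) 0 = 1
    rw [Aff_mul, mul_zero, add_zero, neg_mul_neg, one_mul, Aff_one]
  have hzfix : ∀ y : Option (ZMod p), z y = y → y = none ∨ y = some 0 := by
    intro y hy
    cases y with
    | none => left; rfl
    | some x =>
      right
      rw [hz] at hy
      have h1 : -x = x := Option.some.inj hy
      have h2 : (2 : ZMod p) * x = 0 := by linear_combination -h1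
      have h3 : (2 : ZMod p) ≠ 0 := by
        intro h
        have h4 : (-1 : ZMod p) = 1 := by linear_combination -h
        exact ZMod.neg_one_ne_one h4
      rcases mul_eq_zero.1 h2 with h | h
      · exact absurd h h3
      · rw [h]
  obtain ⟨g, hg, hgn, hg0⟩ := hH.two_trans (x := some 1) (y := some (-1))
    (fun h => h11 (Option.some.inj h))
  have hgn' : g⁻¹ (some 1) = none := by rw [Perm.inv_eq_iff_eq]; exact hgn.symm
  have hg0' : g⁻¹ (some (-1)) = some 0 := by rw [Perm.inv_eq_iff_eq]; exact hg0.symm
  let z' : Perm (Option (ZMod p)) := g * z * g⁻¹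
  have hz'def : z' = g * z * g⁻¹ := rfl
  have hz'H : z' ∈ H := H.mul_mem (H.mul_mem hg hzH) (H.inv_mem hg)
  have hz'1 : z' (some 1) = some 1 := by
    rw [hz'def, Perm.mul_apply, Perm.mul_apply, hgn', hzn, hgn]
  have hz'm : z' (some (-1)) = some (-1) := by
    rw [hz'def, Perm.mul_apply, Perm.mul_apply, hg0', hz, neg_zero, hg0]
  have hz'z' : z' * z' = 1 := by
    rw [hz'def]
    calc g * z * g⁻¹ * (g * z * g⁻¹) = g * (z * z) * g⁻¹ := by group
    _ = 1 := by rw [hzz]; group
  have hz'ne : z' ≠ 1 := by
    intro h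
    have h1 : z = 1 := by
      have h2 : z = g⁻¹ * z' * g := by rw [hz'def]; group
      rw [h2, h]; group
    have h3 := congrArg (fun π : Perm (Option (ZMod p)) => π (some 1)) h1
    simp only [Perm.coe_one, id_eq] at h3
    rw [hz] at h3
    exact h11 (Option.some.inj h3).symm
  -- `z` and `z'` commute
  have hcomm : z * z' * z = z' := by
    let y : Perm (Option (ZMod p)) := g⁻¹ * (z * z' * z) * g
    have hydef : y = g⁻¹ * (z * z' * z) * g := rfl
    have hyH : y ∈ H :=
      H.mul_mem (H.mul_mem (H.inv_mem hg) (H.mul_mem (H.mul_mem hzH hz'H) hzH)) hg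
    have hyn : y none = none := by
      rw [hydef]
      simp only [Perm.mul_apply]
      rw [hgn, hz, hz'm, hz, neg_neg, hgn']
    have hy0 : y (some 0) = some 0 := by
      rw [hydef]
      simp only [Perm.mul_apply]
      rw [hg0, hz, neg_neg, hz'1, hz, hg0']
    have hyy : y * y = 1 := by
      rw [hydef]
      calc g⁻¹ * (z * z' * z) * g * (g⁻¹ * (z * z' * z) * g)
          = g⁻¹ * (z * (z' * (z * z) * z') * z) * g := by group
      _ = g⁻¹ * (z * (z' * z') * z) * g := by rw [hzz, mul_one]
      _ = g⁻¹ * (z * z) * g := by rw [hz'z', mul_one]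
      _ = 1 := by rw [hzz]; group
    obtain ⟨k, c, hk, hkc⟩ := hH.affine' hyH hyn
    have hc : c = 0 := by
      rw [hkc, Aff_some, mul_zero, zero_add] at hy0
      exact Option.some.inj hy0
    subst hc
    rw [hkc, Aff_mul, mul_zero, add_zero, ← Aff_one] at hyy
    have hkk : k * k = 1 := Aff_injective hyy
    have hkk' : (k : ZMod p) * k = 1 := by
      have := congrArg (fun u : (ZMod p)ˣ => (u : ZMod p)) hkk
      simpa using this
    have h7 : ((k : ZMod p) - 1) * ((k : ZMod p) + 1) = 0 := by linear_combination hkk'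
    rcases mul_eq_zero.1 h7 with h | h
    · exfalso
      have hk1 : k = 1 := Units.ext (by rw [Units.val_one]; linear_combination h)
      rw [hk1, Aff_one] at hkc
      have h1 : z * z' * z = 1 := by
        have h2 : z * z' * z = g * y * g⁻¹ := by rw [hydef]; group
        rw [h2, hkc]; group
      apply hz'ne
      calc z' = z * (z * z' * z) * z := by
            rw [show z * (z * z' * z) * z = (z * z) * z' * (z * z) by group, hzz]; group
      _ = 1 := by rw [h1, mul_one, hzz]
    · have hk1 : k = -1 := Units.ext (by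
        rw [Units.val_neg, Units.val_one]; linear_combination h)
      have h2 : z * z' * z = g * y * g⁻¹ := by rw [hydef]; group
      rw [h2, hkc, hk1]
  have hzz' : z * z' = z' * z := by
    calc z * z' = (z * z' * z) * z := by
          rw [show z * z' * z * z = z * z' * (z * z) by group, hzz, mul_one]
    _ = z' * z := by rw [hcomm]
  have hs0 : z' none = some 0 := by
    have h1 : z (z' none) = z' none := by
      have := congrArg (fun π : Perm (Option (ZMod p)) => π none) hzz'
      simp only [Perm.mul_apply] at this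
      rw [this, hzn]
    rcases hzfix _ h1 with h | h
    · exfalso
      apply hz'ne
      exact hH.eq_one_of_fix3 hz'H (x := none) (y := some 1) (z := some (-1)) (by simp) (by simp)
        (fun h => h11 (Option.some.inj h)) h hz'1 hz'm
    · exact h
  have hs1 : z' (some 0) = none := by
    have := congrArg (fun π : Perm (Option (ZMod p)) => π none) hz'z'
    simp only [Perm.mul_apply, Perm.coe_one, id_eq] at this
    rw [hs0] at this
    exact this
  exact ⟨z', hz'H, hs0, hs1, hz'z', hz'1, hz'm⟩

end Cfsg.Agent.Lib.Helper90.ZG
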