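import Mathlib
import Cfsg.Agent.Lib.Helper90.ZD2

/-!
# The case `2 d = p - 1`, `d` even: the group contains `x ↦ -1/x` (second part)
-/

set_option autoImplicit false

namespace Cfsg.Agent.Lib.Helper90.ZG

open Equiv Cfsg.Agent.Lib.Helper5.Zass

variable {p d : ℕ} [Fact p.Prime] {H : Subgroup (Perm (Option (ZMod p)))}

/-- For even `d` every swap built from the involutory swap inverts the two-point stabiliser. -/
theorem ZGood.even_swap_inv (hH : ZGood p d H) (h2d : 2 * d = p - 1) (heven : Even d)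
    {s : Perm (Option (ZMod p))} (hs : s ∈ H) (hs0 : s none = some 0) (hs1 : s (some 0) = none)
    (hss : s * s = 1) (hsf1 : s (some 1) = some 1)
    {k : (ZMod p)ˣ} (hk : k ∈ K H) : s * Aff k 0 = Aff k⁻¹ 0 * s := by
  classical
  have hp : p.Prime := Fact.out
  have hd0 : 0 < d := hH.d_pos
  have hp5 : 2 < p := by
    obtain ⟨j, hj⟩ := heven
    omega
  have : Fact (2 < p) := ⟨hp5⟩
  have h11 : (-1 : ZMod p) ≠ 1 := ZMod.neg_one_ne_one
  choose! f hf0 hf using swap_some hs0 hs1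
  have hf1 : f 1 = 1 := Option.some.inj ((hf 1 one_ne_zero).symm.trans hsf1)
  have hff : ∀ x, x ≠ 0 → f (f x) = x := by
    intro x hx
    have h1 := congrArg (fun π : Perm (Option (ZMod p)) => π (some x)) hss
    simp only [Perm.mul_apply, Perm.coe_one, id_eq] at h1
    rw [hf x hx, hf _ (hf0 x hx)] at h1
    exact Option.some.inj h1
  have hconj : ∀ k : (ZMod p)ˣ, k ∈ K H → ∃ k' : (ZMod p)ˣ, k' ∈ K H ∧
      s * Aff k 0 = Aff k' 0 * s ∧ ∀ x, x ≠ 0 → f (k * x) = k' * f x := by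
    intro k hk
    obtain ⟨k', hk', h1⟩ := hH.conj_swap hs hs0 hs1 hk
    refine ⟨k', hk', h1, fun x hx => ?_⟩
    have h2 := congrArg (fun π : Perm (Option (ZMod p)) => π (some x)) h1
    simp only [Perm.mul_apply, Aff_some, add_zero] at h2
    have hkx : (k : ZMod p) * x ≠ 0 := mul_ne_zero k.ne_zero hx
    rw [hf _ hkx, hf x hx, Aff_some, add_zero] at h2
    exact Option.some.inj h2
  have hsq : ∀ x, x ≠ 0 → x ^ d = 1 → (f x) ^ d = 1 := by
    intro x hx hxd
    let kx : (ZMod p)ˣ := Units.mk0 x hx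
    have hkx : kx ∈ K H := (hH.mem_K_iff h2d kx).2 hxd
    obtain ⟨k', hk', -, h1⟩ := hconj kx hkx
    have h2 := h1 1 one_ne_zero
    have h3 : (kx : ZMod p) = x := rfl
    rw [h3, mul_one, hf1, mul_one] at h2
    rw [h2]
    exact (hH.mem_K_iff h2d k').1 hk'
  have hnsq : ∀ x, x ≠ 0 → x ^ d = -1 → (f x) ^ d = -1 := by
    intro x hx hxd
    rcases pow_d_dichotomy h2d (f x) (hf0 x hx) with h | h
    · exfalso
      have h1 := hsq (f x) (hf0 x hx) h
      rw [hff x hx, hxd] at h1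
      exact h11 h1
    · exact h
  have hρ : ∀ γ, γ ≠ 0 → (f γ * γ⁻¹) ^ d = 1 := by
    intro γ hγ
    rw [mul_pow, inv_pow]
    rcases pow_d_dichotomy h2d γ hγ with h | h
    · rw [hsq γ hγ h, h]; simp
    · rw [hnsq γ hγ h, h]; simp
  let ρu : ZMod p → (ZMod p)ˣ := fun γ =>
    if h : γ = 0 then 1 else Units.mk0 (f γ * γ⁻¹) (mul_ne_zero (hf0 γ h) (inv_ne_zero h))
  have hρu : ∀ γ, γ ≠ 0 → ((ρu γ : (ZMod p)ˣ) : ZMod p) = f γ * γ⁻¹ := by
    intro γ hγ
    show ((if h : γ = 0 then (1 : (ZMod p)ˣ) else Units.mk0 (f γ * γ⁻¹)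
      (mul_ne_zero (hf0 γ h) (inv_ne_zero h)) : (ZMod p)ˣ) : ZMod p) = f γ * γ⁻¹
    rw [dif_neg hγ]; rfl
  have hρK : ∀ γ, γ ≠ 0 → ρu γ ∈ K H := by
    intro γ hγ
    rw [hH.mem_K_iff h2d, hρu γ hγ]
    exact hρ γ hγ
  -- fixed points of the swaps
  have hwfix : ∀ k : (ZMod p)ˣ, ∀ γ, γ ≠ 0 → f γ = k * γ → (s * Aff k 0) (some γ) = some γ := by
    intro k γ hγ h
    rw [Perm.mul_apply, Aff_some, add_zero, ← h, hf _ (hf0 γ hγ), hff γ hγ]
  have hsurj : ∀ k : (ZMod p)ˣ, k ∈ K H → ∃ γ, γ ≠ 0 ∧ f γ = k * γ := by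
    intro k₀ hk₀
    by_contra hcon
    push Not at hcon
    let S : Finset (ZMod p) := Finset.univ.filter (fun x => x ≠ 0)
    let Kfin : Finset (ZMod p)ˣ := Finset.univ.filter (fun u => u ∈ K H)
    have hScard : S.card = p - 1 := by
      have h1 : S = Finset.univ.erase 0 := by
        ext x; simp [S]
      rw [h1, Finset.card_erase_of_mem (Finset.mem_univ _), Finset.card_univ, ZMod.card]
    have hKcard : Kfin.card = d := by
      rw [← hH.card_K, Nat.card_eq_fintype_card, Fintype.card_subtype]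
    have himg : S.image ρu ⊆ Kfin.erase k₀ := by
      intro u hu
      obtain ⟨γ, hγ, rfl⟩ := Finset.mem_image.1 hu
      have hγ0 : γ ≠ 0 := (Finset.mem_filter.1 hγ).2
      rw [Finset.mem_erase]
      refine ⟨?_, Finset.mem_filter.2 ⟨Finset.mem_univ _, hρK γ hγ0⟩⟩
      intro h
      apply hcon γ hγ0
      have h1 := hρu γ hγ0
      rw [h] at h1
      rw [h1, mul_assoc, inv_mul_cancel₀ hγ0, mul_one]
    have hfib : ∀ u ∈ S.image ρu, (S.filter (fun x => ρu x = u)).card ≤ 2 := by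
      intro u hu
      by_contra h2
      push Not at h2
      obtain ⟨a, b, c, ha, hb, hc, hab, hac, hbc⟩ := Finset.two_lt_card_iff.1 h2
      have huK : u ∈ K H := (Finset.mem_filter.1 (Finset.mem_of_mem_erase (himg hu))).2
      have key : ∀ x ∈ S.filter (fun x => ρu x = u), (s * Aff u 0) (some x) = some x := by
        intro x hx
        obtain ⟨hxS, hxu⟩ := Finset.mem_filter.1 hx
        have hx0 : x ≠ 0 := (Finset.mem_filter.1 hxS).2
        apply hwfix u x hx0
        have h1 := hρu x hx0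
        rw [hxu] at h1
        rw [h1, mul_assoc, inv_mul_cancel₀ hx0, mul_one]
      have hw1 : s * Aff u 0 = 1 :=
        hH.eq_one_of_fix3 (H.mul_mem hs huK) (x := some a) (y := some b) (z := some c)
          (fun h => hab (Option.some.inj h)) (fun h => hac (Option.some.inj h))
          (fun h => hbc (Option.some.inj h)) (key a ha) (key b hb) (key c hc)
      have h3 := congrArg (fun π : Perm (Option (ZMod p)) => π none) hw1
      simp only [Perm.mul_apply, Aff_none, Perm.coe_one, id_eq] at h3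
      rw [hs0] at h3
      exact absurd h3 (by simp)
    have h1 := Finset.card_le_mul_card_image S 2 hfib
    have h2 : (S.image ρu).card ≤ d - 1 := by
      have h3 := Finset.card_le_card himg
      rw [Finset.card_erase_of_mem (Finset.mem_filter.2 ⟨Finset.mem_univ _, hk₀⟩), hKcard] at h3
      exact h3
    rw [hScard] at h1
    have h4 : 2 * (S.image ρu).card ≤ 2 * (d - 1) := Nat.mul_le_mul_left 2 h2
    omega
  -- the swaps are involutions
  obtain ⟨γ, hγ0, hγ⟩ := hsurj k hk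
  obtain ⟨k', hk', h1, -⟩ := hconj k hk
  have hw : (s * Aff k 0) * (s * Aff k 0) = 1 := by
    apply hH.eq_one_of_fix3 (H.mul_mem (H.mul_mem hs hk) (H.mul_mem hs hk)) (x := none)
      (y := some 0) (z := some γ) (by simp) (by simp) (fun h => hγ0 (Option.some.inj h).symm)
    · simp only [Perm.mul_apply, Aff_none, Aff_some, mul_zero, add_zero]
      rw [hs0, Aff_some, mul_zero, add_zero, hs1]
    · simp only [Perm.mul_apply, Aff_none, Aff_some, mul_zero, add_zero]
      rw [hs1, Aff_none, hs0]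
    · rw [Perm.mul_apply, hwfix k γ hγ0 hγ, hwfix k γ hγ0 hγ]
  have h2 : (s * Aff k 0) * (s * Aff k 0) = Aff (k' * k) 0 := by
    conv_lhs => rw [h1]
    calc Aff k' 0 * s * (Aff k' 0 * s) = Aff k' 0 * s * (s * Aff k 0) := by rw [h1]
    _ = Aff k' 0 * (s * s) * Aff k 0 := by group
    _ = Aff (k' * k) 0 := by rw [hss, mul_one, Aff_mul, mul_zero, add_zero]
  rw [h2, ← Aff_one] at hw
  have h3 : k' * k = 1 := Aff_injective hw
  have h4 : k' = k⁻¹ := eq_inv_of_mul_eq_one_left h3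
  rw [h1, h4]

end Cfsg.Agent.Lib.Helper90.ZG
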