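import Mathlib
import Cfsg.Agent.Lib.Helper90.ZD3

/-!
# The case `2 d = p - 1`, `d` even: the group contains `x ↦ -1/x` (third part)
-/

set_option autoImplicit false

namespace Cfsg.Agent.Lib.Helper90.ZG

open Equiv Cfsg.Agent.Lib.Helper5.Zass

variable {p d : ℕ} [Fact p.Prime] {H : Subgroup (Perm (Option (ZMod p)))}

/-- For `2 d = p - 1` with `d` even, the group contains `x ↦ -1/x`. -/
theorem ZGood.Sig_mem_of_even (hH : ZGood p d H) (h2d : 2 * d = p - 1) (heven : Even d) :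
    Sig ∈ H := by
  classical
  have hp : p.Prime := Fact.out
  have hd0 : 0 < d := hH.d_pos
  have hp5 : 2 < p := by
    obtain ⟨j, hj⟩ := heven
    omega
  have : Fact (2 < p) := ⟨hp5⟩
  have h11 : (-1 : ZMod p) ≠ 1 := ZMod.neg_one_ne_one
  have hm1 : (-1 : ZMod p) ≠ 0 := neg_ne_zero.2 one_ne_zero
  obtain ⟨s, hs, hs0, hs1, hss, hsf1, hsfm⟩ := hH.even_swap h2d heven
  choose! f hf0 hf using swap_some hs0 hs1
  have hf1 : f 1 = 1 := Option.some.inj ((hf 1 one_ne_zero).symm.trans hsf1)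
  have hfm1 : f (-1) = -1 := Option.some.inj ((hf (-1) hm1).symm.trans hsfm)
  have hff : ∀ x, x ≠ 0 → f (f x) = x := by
    intro x hx
    have h1 := congrArg (fun π : Perm (Option (ZMod p)) => π (some x)) hss
    simp only [Perm.mul_apply, Perm.coe_one, id_eq] at h1
    rw [hf x hx, hf _ (hf0 x hx)] at h1
    exact Option.some.inj h1
  have hfk : ∀ k : (ZMod p)ˣ, k ∈ K H → ∀ x, x ≠ 0 →
      f (k * x) = ((k⁻¹ : (ZMod p)ˣ) : ZMod p) * f x := by
    intro k hk x hx
    have h1 := hH.even_swap_inv h2d heven hs hs0 hs1 hss hsf1 hk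
    have h2 := congrArg (fun π : Perm (Option (ZMod p)) => π (some x)) h1
    simp only [Perm.mul_apply, Aff_some, add_zero] at h2
    have hkx : (k : ZMod p) * x ≠ 0 := mul_ne_zero k.ne_zero hx
    rw [hf _ hkx, hf x hx, Aff_some, add_zero] at h2
    exact Option.some.inj h2
  -- squares
  have hfsq : ∀ x, x ≠ 0 → x ^ d = 1 → f x = x⁻¹ := by
    intro x hx hxd
    let kx : (ZMod p)ˣ := Units.mk0 x hx
    have hkx : kx ∈ K H := (hH.mem_K_iff h2d kx).2 hxd
    have h1 := hfk kx hkx 1 one_ne_zero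
    have h2 : ((kx⁻¹ : (ZMod p)ˣ) : ZMod p) = x⁻¹ := by
      rw [Units.val_inv_eq_inv_val]; rfl
    have h3 : (kx : ZMod p) = x := rfl
    rw [h2, h3, mul_one, hf1, mul_one] at h1
    exact h1
  -- a non-square
  obtain ⟨r, hr0, hrd⟩ : ∃ r : ZMod p, r ≠ 0 ∧ r ^ d = -1 := by
    by_contra hcon
    push Not at hcon
    have h1 : K H = ⊤ := by
      rw [eq_top_iff]
      intro u _
      rw [hH.mem_K_iff h2d]
      rcases pow_d_dichotomy h2d (u : ZMod p) u.ne_zero with h | h
      · exact h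
      · exact absurd h (hcon _ u.ne_zero)
    have h2 := hH.card_K
    rw [h1, Subgroup.card_top, Nat.card_eq_fintype_card, ZMod.card_units_eq_totient,
      Nat.totient_prime hp] at h2
    omega
  set c' := r * f r with hc'
  have hfns : ∀ x, x ≠ 0 → x ^ d = -1 → f x = c' * x⁻¹ := by
    intro x hx hxd
    have hxr : x * r⁻¹ ≠ 0 := mul_ne_zero hx (inv_ne_zero hr0)
    let kx : (ZMod p)ˣ := Units.mk0 (x * r⁻¹) hxr
    have hkx : kx ∈ K H := by
      rw [hH.mem_K_iff h2d]
      show (x * r⁻¹) ^ d = 1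
      rw [mul_pow, inv_pow, hxd, hrd]
      simp
    have h1 := hfk kx hkx r hr0
    have h2 : ((kx⁻¹ : (ZMod p)ˣ) : ZMod p) = (x * r⁻¹)⁻¹ := by
      rw [Units.val_inv_eq_inv_val]; rfl
    have h3 : (kx : ZMod p) = x * r⁻¹ := rfl
    have h4 : x * r⁻¹ * r = x := by rw [mul_assoc, inv_mul_cancel₀ hr0, mul_one]
    rw [h2, h3, h4] at h1
    rw [h1, hc', mul_inv, inv_inv]; ring
  -- the structure equation
  let g : Perm (Option (ZMod p)) := s * Tr (-1) * s * Tr 1 * s
  have hgdef : g = s * Tr (-1) * s * Tr 1 * s := rfl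
  have hg : g ∈ H :=
    H.mul_mem (H.mul_mem (H.mul_mem (H.mul_mem hs (hH.Tr_mem _)) hs) (hH.Tr_mem _)) hs
  have hgn : g none = none := by
    rw [hgdef]
    simp only [Perm.mul_apply]
    rw [hs0, Tr_some, zero_add, hf 1 one_ne_zero, hf1, Tr_some, add_neg_cancel, hs1]
  obtain ⟨a, b, ha, hab⟩ := hH.affine' hg hgn
  have hg0 : g (some 0) = some (-1) := by
    rw [hgdef]
    simp only [Perm.mul_apply]
    rw [hs1, Tr_none, hs0, Tr_some, zero_add, hf _ hm1, hfm1]
  have hgm : g (some (-1)) = some 0 := by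
    rw [hgdef]
    simp only [Perm.mul_apply]
    rw [hf _ hm1, hfm1, Tr_some, neg_add_cancel, hs1, Tr_none, hs0]
  have hb : b = -1 := by
    rw [hab, Aff_some, mul_zero, zero_add] at hg0
    exact Option.some.inj hg0
  have ha1 : (a : ZMod p) = -1 := by
    rw [hab, Aff_some, hb] at hgm
    have h1 := Option.some.inj hgm
    linear_combination -h1
  have hSE : ∀ x, x ≠ 0 → x ≠ -1 → f (f x + 1) = f (-x - 1) + 1 := by
    intro x hx hx1
    have hfx1 : f x + 1 ≠ 0 := by
      intro h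
      have h1 : f x = -1 := by linear_combination h
      have h2 := hff x hx
      rw [h1, hfm1] at h2
      exact hx1 h2.symm
    have hffx : f (f x + 1) + -1 ≠ 0 := by
      intro h
      have h1 : f (f x + 1) = 1 := by linear_combination h
      have h2 := hff _ hfx1
      rw [h1, hf1] at h2
      exact hf0 x hx (by linear_combination -h2)
    have hx2 : -x - 1 ≠ 0 := by
      intro h
      exact hx1 (by linear_combination -h)
    have h1 : g (some x) = some (f (f (f x + 1) + -1)) := by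
      rw [hgdef]
      simp only [Perm.mul_apply]
      rw [hf x hx, Tr_some, hf _ hfx1, Tr_some, hf _ hffx]
    rw [hab, Aff_some, ha1, hb] at h1
    have h2 : f (f (f x + 1) + -1) = -x - 1 := by
      have := Option.some.inj h1
      rw [← this]; ring
    have h3 := hff _ hffx
    rw [h2] at h3
    linear_combination -h3
  -- a square followed by a non-square
  have hex : ∃ n : ℕ, 1 ≤ n ∧ ((n : ZMod p)) ^ d = -1 := by
    refine ⟨r.val, ?_, by rw [ZMod.natCast_zmod_val]; exact hrd⟩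
    have : r.val ≠ 0 := fun h => hr0 ((ZMod.val_eq_zero r).1 h)
    omega
  obtain ⟨hn1, hnd⟩ := Nat.find_spec hex
  set n₀ := Nat.find hex with hn₀
  have hn2 : 2 ≤ n₀ := by
    by_contra h
    have h1 : n₀ = 1 := by omega
    rw [h1, Nat.cast_one, one_pow] at hnd
    exact h11 hnd.symm
  have hnlt : n₀ < p := by
    have h1 : n₀ ≤ r.val := Nat.find_min' hex ⟨by
      have : r.val ≠ 0 := fun h => hr0 ((ZMod.val_eq_zero r).1 h)
      omega, by rw [ZMod.natCast_zmod_val]; exact hrd⟩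
    exact lt_of_le_of_lt h1 (ZMod.val_lt r)
  set x₀ : ZMod p := ((n₀ - 1 : ℕ) : ZMod p) with hx₀
  have hx₀1 : x₀ + 1 = (n₀ : ZMod p) := by
    rw [hx₀]
    have : ((n₀ - 1 : ℕ) : ZMod p) + 1 = ((n₀ - 1 + 1 : ℕ) : ZMod p) := by push_cast; ring
    rw [this, Nat.sub_add_cancel hn1]
  have hx₀0 : x₀ ≠ 0 := by
    rw [hx₀, Ne, ZMod.natCast_eq_zero_iff]
    intro h
    have := Nat.le_of_dvd (by omega) h
    omega
  have hx₀d : x₀ ^ d = 1 := by
    rcases pow_d_dichotomy h2d x₀ hx₀0 with h | h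
    · exact h
    · exfalso
      have := Nat.find_min hex (m := n₀ - 1) (by omega)
      exact this ⟨by omega, h⟩
  have hx₁d : (x₀ + 1) ^ d = -1 := by rw [hx₀1]; exact hnd
  have hx₁0 : x₀ + 1 ≠ 0 := by
    intro h
    rw [h, zero_pow hd0.ne'] at hx₁d
    exact hm1 hx₁d.symm
  have hx₀m : x₀ ≠ -1 := fun h => hx₁0 (by rw [h]; ring)
  have hc'1 : c' = 1 := by
    have h1 := hSE x₀ hx₀0 hx₀m
    rw [hfsq x₀ hx₀0 hx₀d] at h1
    set u := (x₀ + 1)⁻¹ with hu
    have hu1 : (x₀ + 1) * u = 1 := mul_inv_cancel₀ hx₁0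
    have hy1 : x₀⁻¹ + 1 = (x₀ + 1) * x₀⁻¹ := by
      rw [add_mul, mul_inv_cancel₀ hx₀0, one_mul, add_comm]
    have hy1d : (x₀⁻¹ + 1) ^ d = -1 := by
      rw [hy1, mul_pow, inv_pow, hx₁d, hx₀d]; simp
    have hy10 : x₀⁻¹ + 1 ≠ 0 := by
      rw [hy1]; exact mul_ne_zero hx₁0 (inv_ne_zero hx₀0)
    have hy2 : -x₀ - 1 = -(x₀ + 1) := by ring
    have hy2d : (-x₀ - 1) ^ d = -1 := by
      rw [hy2, neg_pow, heven.neg_one_pow, one_mul, hx₁d]
    have hy20 : -x₀ - 1 ≠ 0 := by rw [hy2]; exact neg_ne_zero.2 hx₁0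
    rw [hfns _ hy10 hy1d, hfns _ hy20 hy2d] at h1
    have hi1 : (x₀⁻¹ + 1)⁻¹ = x₀ * u := by
      rw [hy1, mul_inv, inv_inv, mul_comm]
    have hi2 : (-x₀ - 1)⁻¹ = -u := by
      rw [hy2, inv_neg]
    rw [hi1, hi2] at h1
    have h2 : (c' - 1) * (x₀ + 1) = 0 := by
      linear_combination (x₀ + 1) * h1 - c' * (x₀ + 1) * hu1
    rcases mul_eq_zero.1 h2 with h | h
    · linear_combination h
    · exact absurd h hx₁0
  have hall : ∀ x, x ≠ 0 → f x = x⁻¹ := by
    intro x hx
    rcases pow_d_dichotomy h2d x hx with h | h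
    · exact hfsq x hx h
    · rw [hfns x hx h, hc'1, one_mul]
  have hm1K : (-1 : (ZMod p)ˣ) ∈ K H := by
    rw [hH.mem_K_iff h2d]
    show (((-1 : (ZMod p)ˣ) : ZMod p)) ^ d = 1
    rw [Units.val_neg, Units.val_one, heven.neg_one_pow]
  have hsig : Sig = Aff (-1) 0 * s := Equiv.ext fun z => by
    cases z with
    | none => rw [Perm.mul_apply, Sig_none, hs0, Aff_some, mul_zero, add_zero]
    | some x =>
      by_cases hx : x = 0
      · rw [hx, Perm.mul_apply, Sig_zero, hs1, Aff_none]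
      · rw [Perm.mul_apply, Sig_some hx, hf x hx, hall x hx, Aff_some, add_zero,
          Units.val_neg, Units.val_one]
        congr 1
        ring
  rw [hsig]
  exact H.mul_mem hm1K hs

/-- A `ZGood` group with `2 d = p - 1`, `1 < d`, generated by the conjugates of the translation,
is the standard group. -/
theorem ZGood.eq_L (hH : ZGood p d H) (hNC : NC H) (h2d : 2 * d = p - 1) (hd : 1 < d) :
    H = L p d := by
  rcases Nat.even_or_odd d with h | h
  · exact hH.eq_L_of_Sig h2d (hH.Sig_mem_of_even h2d h)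
  · exact hH.eq_L_of_Sig h2d (hH.Sig_mem_of_odd hNC h2d hd h)

end Cfsg.Agent.Lib.Helper90.ZG
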