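import Mathlib
import Cfsg.Agent.Lib.Helper90.ZD4
import Cfsg.Agent.Lib.Helper5.ZassSimple
import Cfsg.Agent.Lib.Helper5.PSL2

/-!
# The case `2 d = p - 1`: the group is `PSL(2, p)`
-/

set_option autoImplicit false

namespace Cfsg.Agent.Lib.Helper90.ZG

open Equiv Cfsg.Agent.Lib.Helper5.Zass Cfsg.Agent.Lib.Helper5

variable {p d : ℕ} [Fact p.Prime] {H : Subgroup (Perm (Option (ZMod p)))}

theorem ZGood.of_good (hG : Good p H) (h2d : 2 * d = p - 1) : ZGood p d H := by
  have hp : p.Prime := Fact.out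
  refine ⟨?_, hG.tr_mem, hG.norm, hG.moves⟩
  have h1 := hG.card
  have h2 : p ^ 2 - 1 = (p + 1) * (p - 1) := by
    have := hp.one_lt
    obtain ⟨k, rfl⟩ : ∃ k, p = k + 1 := ⟨p - 1, by omega⟩
    simp only [Nat.add_sub_cancel]
    apply Nat.sub_eq_of_eq_add; ring
  rw [h2, ← h2d] at h1
  have h3 : 2 * Nat.card H = 2 * ((p + 1) * p * d) := by rw [h1]; ring
  exact Nat.eq_of_mul_eq_mul_left (by norm_num) h3

/-- A `ZGood` group with `2 d = p - 1`, `1 < d`, generated by the conjugates of the translation,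
is isomorphic to `PSL(2, p)`. -/
theorem ZGood.iso_psl (hH : ZGood p d H) (hNC : NC H) (h2d : 2 * d = p - 1) (hd : 1 < d) :
    Nonempty (H ≃* Matrix.ProjectiveSpecialLinearGroup (Fin 2) (ZMod p)) := by
  have hp : p.Prime := Fact.out
  have hp5 : 5 ≤ p := by omega
  have hF : Fintype.card (ZMod p) = p := ZMod.card p
  have h2 : (2 : ZMod p) ≠ 0 := by
    intro h
    have h3 : ((2 : ℕ) : ZMod p) = 0 := by exact_mod_cast h
    rw [ZMod.natCast_eq_zero_iff] at h3
    have := Nat.le_of_dvd (by norm_num) h3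
    omega
  have hcard : 2 * Nat.card (Matrix.ProjectiveSpecialLinearGroup (Fin 2) (ZMod p))
      = p * (p ^ 2 - 1) := by
    have h3 := card_PSL_mul_card_center (Fin 2) (ZMod p)
    rw [card_center_SL2_of_two_ne_zero h2, card_SL2, hF] at h3
    rw [mul_comm]; exact h3
  have : IsSimpleGroup (Matrix.ProjectiveSpecialLinearGroup (Fin 2) (ZMod p)) :=
    Matrix.ProjectiveSpecialLinearGroup.rank_two_simple (by
      rw [Nat.card_eq_fintype_card, hF]; omega)
  have : Finite (Matrix.ProjectiveSpecialLinearGroup (Fin 2) (ZMod p)) :=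
    Nat.finite_of_card_ne_zero (by
      intro h0
      rw [h0, mul_zero] at hcard
      have h4 : 0 < p * (p ^ 2 - 1) := by
        apply Nat.mul_pos (by omega)
        have : 5 ^ 2 ≤ p ^ 2 := Nat.pow_le_pow_left hp5 2
        omega
      omega)
  obtain ⟨H', hG', ⟨e⟩⟩ := exists_good (G := Matrix.ProjectiveSpecialLinearGroup (Fin 2) (ZMod p))
    (p := p) (by omega) hcard
  have hH' : ZGood p d H' := ZGood.of_good hG' h2d
  have hsimple : IsSimpleGroup H' := e.symm.isSimpleGroup
  have hNC' : NC H' := by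
    intro M hM ⟨t, htM, ht⟩
    rcases hM.eq_bot_or_eq_top with h | h
    · exfalso
      rw [h, Subgroup.mem_bot] at htM
      rw [htM] at ht
      have h3 := congrArg (fun π : Perm (Option (ZMod p)) => π (some 0)) ht
      simp only [Tr_some, zero_add, Subgroup.coe_one, Perm.coe_one, id_eq] at h3
      have h4 : (0 : ZMod p) = 1 := Option.some.inj h3
      have : Fact (1 < p) := ⟨hp.one_lt⟩
      exact zero_ne_one h4
    · exact h
  have h1 := hH.eq_L hNC h2d hd
  have h2' := hH'.eq_L hNC' h2d hd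
  exact ⟨(MulEquiv.subgroupCongr (h1.trans h2'.symm)).trans e.symm⟩

end Cfsg.Agent.Lib.Helper90.ZG
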