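import Mathlib
import Cfsg.Agent.Lib.Helper90.ZZ
import Cfsg.Agent.Lib.Helper90.ZD5
import Cfsg.Agent.Lib.Helper2.ZGPGL
import Cfsg.Agent.Lib.Helper64.ZGAffine
import Cfsg.Agent.Lib.Helper58.SharplyTwo

/-!
# Assembly for S0732: the normal closure of the translation and the case distinction
-/

set_option autoImplicit false

namespace Cfsg.Agent.Lib.Helper90.ZG

open Equiv Cfsg.Agent.Lib.Helper5.Zass

/-- `ZGood` without the cardinality. -/
structure ZPre (p : ℕ) (H : Subgroup (Perm (Option (ZMod p)))) : Prop where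
  tr_mem : Tr (1 : ZMod p) ∈ H
  norm : ∀ h ∈ H, h none = none → h * Tr 1 * h⁻¹ ∈ Subgroup.zpowers (Tr (1 : ZMod p))
  moves : ∃ t ∈ H, t none ≠ none

variable {p d : ℕ} [Fact p.Prime] {H : Subgroup (Perm (Option (ZMod p)))}

theorem ZPre.Tr_mem (hH : ZPre p H) (u : ZMod p) : Tr u ∈ H := by
  have : Tr u = Tr 1 ^ u.val := by rw [Tr_pow, ZMod.natCast_zmod_val]
  rw [this]; exact pow_mem hH.tr_mem _

theorem ZPre.mem_K_of_Aff_mem (hH : ZPre p H) {k : (ZMod p)ˣ} {b : ZMod p}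
    (h : Aff k b ∈ H) : k ∈ K H := by
  have h1 := H.mul_mem (hH.Tr_mem (-b)) h
  rwa [Tr_mul_Aff, add_neg_cancel] at h1

theorem ZPre.Aff_mem (hH : ZPre p H) {k : (ZMod p)ˣ} (hk : k ∈ K H) (b : ZMod p) :
    Aff k b ∈ H := by
  have h1 := H.mul_mem (hH.Tr_mem b) hk
  rwa [Tr_mul_Aff, zero_add] at h1

theorem ZPre.affine (hH : ZPre p H) {h : Perm (Option (ZMod p))} (hh : h ∈ H)
    (hfix : h none = none) : ∃ (k : (ZMod p)ˣ) (b : ZMod p), h = Aff k b := by
  obtain ⟨n, hn⟩ := Subgroup.mem_zpowers_iff.1 (hH.norm h hh hfix)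
  rw [Tr_zpow] at hn
  have hcomm : h * Tr 1 = Tr (n : ZMod p) * h := by
    rw [hn]; group
  have h0 : h (some 0) ≠ none := fun h0 => by
    have := h.injective (h0.trans hfix.symm)
    simp at this
  obtain ⟨b, hb⟩ := Option.ne_none_iff_exists'.1 h0
  have key : ∀ j : ℕ, h (some (j : ZMod p)) = some ((n : ZMod p) * j + b) := by
    intro j
    induction j with
    | zero => simp [hb]
    | succ j ih =>
      have h1 : h (some (((j + 1 : ℕ) : ZMod p))) =
          (h * Tr 1 : Perm (Option (ZMod p))) (some (j : ZMod p)) := by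
        rw [Perm.mul_apply, Tr_some]; push_cast; rfl
      rw [h1, hcomm, Perm.mul_apply, ih, Tr_some]
      congr 1; push_cast; ring
  have key' : ∀ x : ZMod p, h (some x) = some ((n : ZMod p) * x + b) := by
    intro x
    have := key x.val
    rwa [ZMod.natCast_zmod_val] at this
  have hn0 : (n : ZMod p) ≠ 0 := by
    intro hz
    have h1 := key' 1
    rw [hz, zero_mul, zero_add, ← hb] at h1
    have := h.injective h1
    simp at this
  refine ⟨Units.mk0 _ hn0, b, Equiv.ext fun z => ?_⟩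
  cases z with
  | none => simpa using hfix
  | some x => simp [key']

/-- Elements of `H` fixing `∞` are affine with multiplier in `K H`. -/
theorem ZPre.affine' (hH : ZPre p H) {h : Perm (Option (ZMod p))} (hh : h ∈ H)
    (hfix : h none = none) : ∃ (k : (ZMod p)ˣ) (b : ZMod p), k ∈ K H ∧ h = Aff k b := by
  obtain ⟨k, b, rfl⟩ := hH.affine hh hfix
  exact ⟨k, b, hH.mem_K_of_Aff_mem hh, rfl⟩

theorem ZPre.orbit_eq (hH : ZPre p H) (z : Option (ZMod p)) : ∃ h ∈ H, h none = z := by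
  obtain ⟨t, ht, htn⟩ := hH.moves
  cases z with
  | none => exact ⟨1, H.one_mem, rfl⟩
  | some x =>
    obtain ⟨x₀, hx₀⟩ := Option.ne_none_iff_exists'.1 htn
    refine ⟨Tr (x - x₀) * t, H.mul_mem (hH.Tr_mem _) ht, ?_⟩
    rw [Perm.mul_apply, hx₀, Tr_some]; congr 1; ring

theorem ZPre.card_eq (hH : ZPre p H) : Nat.card H = (p + 1) * (Nat.card (K H) * p) := by
  classical
  let S := MulAction.stabilizer H (none : Option (ZMod p))
  have h1 : S.index = p + 1 := by
    rw [MulAction.index_stabilizer]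
    have : MulAction.orbit H (none : Option (ZMod p)) = Set.univ := by
      ext z; simp only [Set.mem_univ, iff_true]
      obtain ⟨h, hh, hz⟩ := hH.orbit_eq z
      exact ⟨⟨h, hh⟩, hz⟩
    rw [this, Set.ncard_univ, Nat.card_eq_fintype_card, Fintype.card_option, ZMod.card]
  have h2 : Nat.card S = Nat.card (K H) * p := by
    let F : K H × ZMod p → S := fun kb => ⟨⟨Aff kb.1 kb.2, hH.Aff_mem kb.1.2 kb.2⟩, by
      rw [MulAction.mem_stabilizer_iff]; rfl⟩
    have hF : Function.Bijective F := by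
      constructor
      · rintro ⟨k, b⟩ ⟨k', b'⟩ hkb
        have h3 : Aff (k : (ZMod p)ˣ) b = Aff (k' : (ZMod p)ˣ) b' :=
          congrArg (fun s : S => ((s : H) : Perm (Option (ZMod p)))) hkb
        have hb : b = b' := by
          have := congrArg (fun π : Perm (Option (ZMod p)) => π (some 0)) h3
          simpa using this
        have hk : (k : (ZMod p)ˣ) = k' := by
          have := congrArg (fun π : Perm (Option (ZMod p)) => π (some 1)) h3
          simp [hb] at this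
          exact Units.ext this
        exact Prod.ext (Subtype.ext hk) hb
      · rintro ⟨⟨h, hh⟩, hs⟩
        have hfix : h none = none := hs
        obtain ⟨k, b, rfl⟩ := hH.affine hh hfix
        exact ⟨(⟨k, hH.mem_K_of_Aff_mem hh⟩, b), rfl⟩
    rw [← Nat.card_congr (Equiv.ofBijective F hF), Nat.card_prod, Nat.card_zmod]
  rw [← S.card_mul_index, h1, h2]; ring

theorem ZPre.toZGood (hH : ZPre p H) : ZGood p (Nat.card (K H)) H := by
  refine ⟨?_, hH.tr_mem, hH.norm, hH.moves⟩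
  rw [hH.card_eq]; ring

/-- The normal closure of the translation. -/
def H0 (H : Subgroup (Perm (Option (ZMod p)))) : Subgroup (Perm (Option (ZMod p))) :=
  Subgroup.closure {x | ∃ h ∈ H, x = h * Tr (1 : ZMod p) * h⁻¹}

theorem H0_le (htr : Tr (1 : ZMod p) ∈ H) : H0 H ≤ H := by
  rw [H0, Subgroup.closure_le]
  rintro x ⟨h, hh, rfl⟩
  exact H.mul_mem (H.mul_mem hh htr) (H.inv_mem hh)

theorem H0_conj {h : Perm (Option (ZMod p))} (hh : h ∈ H) {x : Perm (Option (ZMod p))}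
    (hx : x ∈ H0 H) : h * x * h⁻¹ ∈ H0 H := by
  have h1 : (H0 H).map (MulAut.conj h).toMonoidHom ≤ H0 H := by
    rw [H0, MonoidHom.map_closure, Subgroup.closure_le]
    rintro y ⟨x, ⟨g, hg, rfl⟩, rfl⟩
    apply Subgroup.subset_closure
    refine ⟨h * g, H.mul_mem hh hg, ?_⟩
    show h * (g * Tr 1 * g⁻¹) * h⁻¹ = _
    group
  exact h1 (Subgroup.mem_map_of_mem _ hx)

theorem Tr_mem_H0 : Tr (1 : ZMod p) ∈ H0 H :=
  Subgroup.subset_closure ⟨1, H.one_mem, by group⟩

theorem ZGood.pre_H0 (hH : ZGood p d H) : ZPre p (H0 H) := by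
  have hp : p.Prime := Fact.out
  refine ⟨Tr_mem_H0, fun h hh hfix => hH.norm h (H0_le hH.tr_mem hh) hfix, ?_⟩
  obtain ⟨s, hs, hs0, hs1⟩ := hH.exists_swap
  refine ⟨s * Tr 1 * s⁻¹, Subgroup.subset_closure ⟨s, hs, rfl⟩, ?_⟩
  have hsinv : s⁻¹ none = some 0 := by rw [Perm.inv_eq_iff_eq]; exact hs1.symm
  rw [Perm.mul_apply, Perm.mul_apply, hsinv, Tr_some, zero_add]
  intro h
  have h1 := s.injective (h.trans hs1.symm)
  have h2 : (1 : ZMod p) = 0 := Option.some.inj h1
  have : Fact (1 < p) := ⟨hp.one_lt⟩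
  exact one_ne_zero h2

theorem ZGood.nc_H0 (hH : ZGood p d H) : NC (H0 H) := by
  intro M hM ⟨t, htM, ht⟩
  have hG0 := hH.pre_H0.toZGood
  have hle : H0 H ≤ M.map (H0 H).subtype := by
    conv_lhs => rw [H0]
    rw [Subgroup.closure_le]
    rintro x ⟨h, hh, rfl⟩
    obtain ⟨g, hg, hgn⟩ := hG0.orbit_eq (h none)
    have hy : g⁻¹ * h ∈ H := H.mul_mem (H.inv_mem (H0_le hH.tr_mem hg)) hh
    have hyn : (g⁻¹ * h) none = none := by
      rw [Perm.mul_apply, ← hgn, pinv_apply]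
    obtain ⟨n, hn⟩ := Subgroup.mem_zpowers_iff.1 (hH.norm _ hy hyn)
    have h1 : h * Tr 1 * h⁻¹ = g * (Tr 1) ^ n * g⁻¹ := by
      rw [hn]; group
    rw [h1]
    refine ⟨(⟨g, hg⟩ : H0 H) * t ^ n * (⟨g, hg⟩ : H0 H)⁻¹,
      hM.conj_mem _ (M.zpow_mem htM n) _, ?_⟩
    show g * ((t ^ n : H0 H) : Perm (Option (ZMod p))) * g⁻¹ = g * Tr 1 ^ n * g⁻¹
    rw [Subgroup.coe_zpow, ht]
  rw [eq_top_iff]
  intro x _
  obtain ⟨m, hm, hmx⟩ := hle x.2
  have : m = x := Subtype.ext hmx
  rw [← this]; exact hm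

theorem K_mono {H₁ H₂ : Subgroup (Perm (Option (ZMod p)))} (h : H₁ ≤ H₂) : K H₁ ≤ K H₂ :=
  fun _ hk => h hk

/-- A sharply 2-transitive `ZGood` group has a regular normal subgroup. -/
theorem ZGood.exists_regular {H₀ : Subgroup (Perm (Option (ZMod p)))} (hH₀ : ZGood p 1 H₀) :
    ∃ N : Subgroup H₀, N.Normal ∧ Nat.card N = p + 1 ∧
      ∀ g : H₀, g ∈ N ↔ g = 1 ∨ ∀ a : Option (ZMod p), (g : Perm (Option (ZMod p))) a ≠ a := by
  have S : Cfsg.Agent.Lib.Helper58.SharpTwo H₀ (Option (ZMod p)) := by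
    refine ⟨fun a b c e hab hce => ?_, fun g a b hab ha hb => ?_⟩
    · obtain ⟨g, hg, h1, h2⟩ := hH₀.two_trans' hab hce
      exact ⟨⟨g, hg⟩, h1, h2⟩
    · have hc := hH₀.card_two_stab hab
      have h1 : (MulAction.stabilizer H₀ a ⊓ MulAction.stabilizer H₀ b : Subgroup H₀) = ⊥ :=
        Subgroup.card_eq_one.1 hc
      have h2 : g ∈ (MulAction.stabilizer H₀ a ⊓ MulAction.stabilizer H₀ b : Subgroup H₀) := by
        rw [Subgroup.mem_inf, MulAction.mem_stabilizer_iff, MulAction.mem_stabilizer_iff]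
        exact ⟨ha, hb⟩
      rw [h1] at h2
      exact Subgroup.mem_bot.1 h2
  obtain ⟨N, p', j, -, -, hcard, hnormal, hNcard, -, -, -, hmem, -⟩ := S.exists_kernel
  refine ⟨N, hnormal, ?_, hmem⟩
  rw [hNcard, ← hcard, Nat.card_eq_fintype_card, Fintype.card_option, ZMod.card]

/-- The classification, given the Feit step. -/
theorem ZGood.classify (hH : ZGood p d H)
    (hF : ∀ (H₁ : Subgroup (Perm (Option (ZMod p)))) (d₁ : ℕ), ZGood p d₁ H₁ → NC H₁ → 1 < d₁ →
      d₁ < p - 1 → 2 * d₁ = p - 1) :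
    (d = p - 1 ∧ Nonempty (H ≃* Matrix.ProjGenLinGroup (Fin 2) (ZMod p))) ∨
    (2 * d = p - 1 ∧ Nonempty (H ≃* Matrix.ProjectiveSpecialLinearGroup (Fin 2) (ZMod p))) ∨
    (∃ q : ℕ, q.Prime ∧ p + 1 = 2 ^ q ∧ (d = 1 ∨ d = q) ∧
      ∃ e : Option (ZMod p) ≃ GaloisField 2 q,
        ∀ h ∈ H, e.symm.trans (h.trans e) ∈ Cfsg.semiaffineGroup (GaloisField 2 q)) := by
  have hp : p.Prime := Fact.out
  have hd0 : 0 < d := hH.d_pos
  by_cases h1 : d = p - 1
  · left
    refine ⟨h1, ?_⟩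
    subst h1
    exact Cfsg.Agent.Lib.Helper2.ZGPGL.zgood_pgl hH
  right
  obtain ⟨c, hc⟩ := hH.d_dvd
  have h2d : 2 * d ≤ p - 1 := by
    have hc0 : c ≠ 0 := by
      rintro rfl
      have := hp.two_le
      omega
    have hc1 : c ≠ 1 := by
      rintro rfl
      exact h1 (by omega)
    have hc2 : 2 ≤ c := by omega
    calc 2 * d = d * 2 := by ring
    _ ≤ d * c := Nat.mul_le_mul_left d hc2
    _ = p - 1 := hc.symm
  have hp2 : p ≠ 2 := by
    rintro rfl
    omega
  have hpre := hH.pre_H0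
  have hG0 := hpre.toZGood
  have hNC0 := hH.nc_H0
  have hle : H0 H ≤ H := H0_le hH.tr_mem
  have hdvd : Nat.card (K (H0 H)) ∣ d := by
    rw [← hH.card_K]
    exact Subgroup.card_dvd_of_le (K_mono hle)
  have hd₀pos : 0 < Nat.card (K (H0 H)) := Nat.card_pos
  have hd₀le : Nat.card (K (H0 H)) ≤ d := Nat.le_of_dvd hd0 hdvd
  by_cases h3 : Nat.card (K (H0 H)) = 1
  · -- the affine case
    right
    rw [h3] at hG0
    obtain ⟨N, hNn, hNcard, hmem⟩ := hG0.exists_regular
    let M : Subgroup (Perm (Option (ZMod p))) := N.map (H0 H).subtype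
    have hMdef : ∀ m : Perm (Option (ZMod p)), m ∈ M ↔ ∃ n ∈ N, ((n : H0 H) :
        Perm (Option (ZMod p))) = m := fun m => Iff.rfl
    have hM : M ≤ H := by
      intro m hm
      obtain ⟨n, -, rfl⟩ := (hMdef m).1 hm
      exact hle n.2
    have hMc : Nat.card M = p + 1 := by
      rw [← hNcard]
      exact (Nat.card_congr (N.equivMapOfInjective (H0 H).subtype
        (Subgroup.subtype_injective _)).toEquiv).symm
    have hMn : ∀ h ∈ H, ∀ m ∈ M, h * m * h⁻¹ ∈ M := by
      intro h hh m hm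
      obtain ⟨n, hn, rfl⟩ := (hMdef m).1 hm
      rw [hMdef]
      refine ⟨⟨h * (n : Perm (Option (ZMod p))) * h⁻¹, H0_conj hh n.2⟩, ?_, rfl⟩
      rw [hmem]
      rcases (hmem n).1 hn with h4 | h4
      · left
        apply Subtype.ext
        show h * (n : Perm (Option (ZMod p))) * h⁻¹ = 1
        rw [h4]; simp
      · right
        intro a ha
        have h5 : h * (n : Perm (Option (ZMod p))) * h⁻¹ = h * (n : Perm (Option (ZMod p))) * h⁻¹ := rfl
        have h6 : (h * (n : Perm (Option (ZMod p))) * h⁻¹) a = a := ha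
        rw [Perm.mul_apply, Perm.mul_apply] at h6
        apply h4 (h⁻¹ a)
        apply h.injective
        rw [h6, papply_inv]
    have hMreg : ∀ m ∈ M, m none = none → m = 1 := by
      intro m hm hfix
      obtain ⟨n, hn, rfl⟩ := (hMdef m).1 hm
      rcases (hmem n).1 hn with h4 | h4
      · rw [h4]; rfl
      · exact absurd hfix (h4 none)
    exact Cfsg.Agent.Lib.Helper64.ZGAffine.zgood_affine hH hp2 M hM hMn hMc hMreg
  · -- the `PSL` case
    left
    have h4 : 1 < Nat.card (K (H0 H)) := by omega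
    have h5 : Nat.card (K (H0 H)) < p - 1 := by omega
    have h6 := hF (H0 H) _ hG0 hNC0 h4 h5
    have h7 : d = Nat.card (K (H0 H)) := by omega
    have h8 : H0 H = H := by
      apply Subgroup.eq_of_le_of_card_ge hle
      rw [hH.card, hG0.card, ← h7]
    rw [h8] at hNC0
    have h9 : 2 * d = p - 1 := by omega
    exact ⟨h9, hH.iso_psl hNC0 h9 (by omega)⟩

end Cfsg.Agent.Lib.Helper90.ZG
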